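import Mathlib
import Cfsg.Agent.H63.Wielandt.Algebra

/-!
# Invariant matrices of a primitive group of degree `2p`

A fixed-point-free element `σ` of order `p` identifies the points with `Fin 2 × ZMod p`. Each
invariant matrix becomes a family of `2 × 2` matrices indexed by the characters of `ZMod p`; all
of them share an eigenvector.
-/

set_option autoImplicit false
set_option linter.unusedSectionVars false

namespace Cfsg.Agent.H63.Wielandt

open Finset ComplexConjugate Equiv
open scoped Pointwise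

variable {α : Type*} [Fintype α] [DecidableEq α]

/-- The data: a primitive group, with a semiregular element of order `p` with two orbits. -/
structure Frame (α : Type*) [Fintype α] [DecidableEq α] (p : ℕ) where
  G : Subgroup (Perm α)
  prim : MulAction.IsPreprimitive G α
  σ : Perm α
  σ_mem : σ ∈ G
  pt : Fin 2 × ZMod p ≃ α
  σ_pt : ∀ i x, σ (pt (i, x)) = pt (i, x + 1)

variable {p : ℕ} [Fact p.Prime] (F : Frame α p)

namespace Frame

/-- The base point. -/
def o : α := F.pt (0, 0)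

instance : MulAction.IsPretransitive F.G α := F.prim.toIsPretransitive

theorem σ_pow_pt (n : ℕ) (i : Fin 2) (x : ZMod p) :
    (F.σ ^ n) (F.pt (i, x)) = F.pt (i, x + n) := by
  induction n with
  | zero => simp
  | succ n ih =>
    rw [pow_succ', Perm.mul_apply, ih, F.σ_pt]
    push_cast
    rw [add_assoc]

/-- An invariant matrix. -/
def Inv (M : Matrix α α ℂ) : Prop := ∀ g ∈ F.G, ∀ x y, M (g x) (g y) = M x y

/-- The algebra of invariant matrices. -/
def alg : Subalgebra ℂ (Matrix α α ℂ) where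
  carrier := {M | F.Inv M}
  mul_mem' := fun {M N} hM hN g hg x y => by
    rw [Matrix.mul_apply, Matrix.mul_apply]
    refine (Equiv.sum_comp g (fun z => M (g x) z * N z (g y))).symm.trans ?_
    simp only [hM g hg, hN g hg]
  one_mem' := fun g _ x y => by simp [Matrix.one_apply]
  add_mem' := fun {M N} hM hN g hg x y => by simp [hM g hg x y, hN g hg x y]
  zero_mem' := fun g _ x y => rfl
  algebraMap_mem' := fun r g _ x y => by simp [Matrix.algebraMap_matrix_apply]

theorem mem_alg {M : Matrix α α ℂ} : M ∈ F.alg ↔ F.Inv M := Iff.rfl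

theorem star_mem {M : Matrix α α ℂ} (hM : F.Inv M) : F.Inv M.conjTranspose := fun g hg x y => by
  simp [Matrix.conjTranspose_apply, hM g hg y x]

theorem inv_shift {M : Matrix α α ℂ} (hM : F.Inv M) (i l : Fin 2) (x y c : ZMod p) :
    M (F.pt (i, x + c)) (F.pt (l, y + c)) = M (F.pt (i, x)) (F.pt (l, y)) := by
  obtain ⟨n, rfl⟩ := ZMod.natCast_zmod_surjective c
  rw [← F.σ_pow_pt, ← F.σ_pow_pt]
  exact hM _ (F.G.pow_mem F.σ_mem n) _ _

theorem inv_shift' {M : Matrix α α ℂ} (hM : F.Inv M) (i l : Fin 2) (x y : ZMod p) :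
    M (F.pt (i, x)) (F.pt (l, y)) = M (F.pt (i, x - y)) (F.pt (l, 0)) := by
  have := F.inv_shift hM i l (x - y) 0 y
  simpa using this

theorem sum_pt (φ : α → ℂ) : ∑ a, φ a = ∑ i : Fin 2, ∑ x : ZMod p, φ (F.pt (i, x)) := by
  rw [← Equiv.sum_comp F.pt, Fintype.sum_prod_type]

/-- The sum of a column. -/
noncomputable def val (M : Matrix α α ℂ) : ℂ := ∑ x, M x F.o

/-- The block sum. -/
noncomputable def blk (M : Matrix α α ℂ) (i l : Fin 2) : ℂ :=
  ∑ x : ZMod p, M (F.pt (i, x)) (F.pt (l, 0))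

/-- The eigenvalue on the difference of the two `σ`-orbits. -/
noncomputable def dif (M : Matrix α α ℂ) : ℂ := F.blk M 0 0 - F.blk M 1 0

theorem col_sum {M : Matrix α α ℂ} (hM : F.Inv M) (y : α) : ∑ x, M x y = F.val M := by
  obtain ⟨g, hg⟩ := MulAction.exists_smul_eq F.G F.o y
  change (g : Perm α) F.o = y at hg
  rw [val, ← Equiv.sum_comp (g : Perm α) (fun x => M x y)]
  simp only [← hg, hM _ g.2]

theorem row_sum {M : Matrix α α ℂ} (hM : F.Inv M) (x : α) : ∑ y, M x y = F.val M := by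
  have hc : ∀ x, ∑ y, M x y = ∑ y, M F.o y := by
    intro x
    obtain ⟨g, hg⟩ := MulAction.exists_smul_eq F.G F.o x
    change (g : Perm α) F.o = x at hg
    rw [← Equiv.sum_comp (g : Perm α) (fun y => M x y)]
    simp only [← hg, hM _ g.2]
  have h := Finset.sum_comm (f := fun x y => M x y) (s := (univ : Finset α)) (t := (univ : Finset α))
  simp only [F.col_sum hM, hc, Finset.sum_const, Finset.card_univ, nsmul_eq_mul] at h
  have h0 : (Fintype.card α : ℂ) ≠ 0 := by
    exact_mod_cast (Fintype.card_pos_iff.2 ⟨F.o⟩).ne'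
  rw [hc, mul_left_cancel₀ h0 h]

theorem blk_col {M : Matrix α α ℂ} (hM : F.Inv M) (l : Fin 2) :
    F.blk M 0 l + F.blk M 1 l = F.val M := by
  rw [← F.col_sum hM (F.pt (l, 0)), F.sum_pt, Fin.sum_univ_two]
  rfl

theorem blk_row {M : Matrix α α ℂ} (hM : F.Inv M) (i : Fin 2) :
    F.blk M i 0 + F.blk M i 1 = F.val M := by
  rw [← F.row_sum hM (F.pt (i, 0)), F.sum_pt, Fin.sum_univ_two]
  congr 1 <;>
  · refine Fintype.sum_equiv (Equiv.neg (ZMod p)) _ _ fun x => ?_
    rw [Equiv.neg_apply, F.inv_shift' hM _ _ 0 (-x), zero_sub, neg_neg]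

theorem blk_symm {M : Matrix α α ℂ} (hM : F.Inv M) :
    F.blk M 1 1 = F.blk M 0 0 ∧ F.blk M 0 1 = F.blk M 1 0 := by
  have h1 := F.blk_col hM 0
  have h2 := F.blk_row hM 1
  have h3 := F.blk_row hM 0
  exact ⟨by linear_combination h2 - h1, by linear_combination h3 - h1⟩

/-- `±1` on the two orbits. -/
noncomputable def v0 (a : α) : ℂ := if (F.pt.symm a).1 = 0 then 1 else -1

theorem v0_pt (i : Fin 2) (x : ZMod p) : F.v0 (F.pt (i, x)) = if i = 0 then 1 else -1 := by
  simp [v0]

theorem mulVec_v0 {M : Matrix α α ℂ} (hM : F.Inv M) : M.mulVec F.v0 = F.dif M • F.v0 := by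
  funext a
  obtain ⟨⟨i, x⟩, rfl⟩ := F.pt.surjective a
  have hrow : ∀ l, ∑ y : ZMod p, M (F.pt (i, x)) (F.pt (l, y)) = F.blk M i l := by
    intro l
    refine Fintype.sum_equiv (Equiv.subLeft x) _ _ fun y => ?_
    rw [Equiv.subLeft_apply, F.inv_shift' hM _ _ x y]
  rw [Matrix.mulVec, dotProduct, F.sum_pt, Fin.sum_univ_two, Pi.smul_apply, smul_eq_mul, F.v0_pt]
  simp only [v0_pt, ← Finset.sum_mul, hrow]
  obtain ⟨h1, h2⟩ := F.blk_symm hM
  fin_cases i <;> simp [dif, h1, h2] <;> ring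

theorem exists_break (hp : 3 ≤ Fintype.card α) :
    ∃ (g : Perm α), g ∈ F.G ∧ ∃ (i : Fin 2) (x : ZMod p),
      F.v0 (g (F.pt (i, x))) ≠ F.v0 (g (F.pt (i, 0))) := by
  by_contra hcon
  push Not at hcon
  set B : Set α := {a | F.v0 a = 1} with hB
  have hval : ∀ a, F.v0 a = 1 ∨ F.v0 a = -1 := fun a => by
    unfold v0; split_ifs <;> simp
  have key : ∀ g ∈ F.G, ∀ a b, F.v0 a = F.v0 b → F.v0 (g a) = F.v0 (g b) := by
    intro g hg a b hab
    obtain ⟨⟨i, x⟩, rfl⟩ := F.pt.surjective a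
    obtain ⟨⟨l, y⟩, rfl⟩ := F.pt.surjective b
    rw [F.v0_pt, F.v0_pt] at hab
    have hil : i = l := by
      fin_cases i <;> fin_cases l <;> first | rfl | (norm_num at hab)
    subst hil
    rw [hcon g hg i x, hcon g hg i y]
  have hblock : MulAction.IsBlock F.G B := by
    rw [MulAction.isBlock_iff_smul_eq_or_disjoint]
    intro g
    by_cases hd : Disjoint (g • B) B
    · exact Or.inr hd
    left
    obtain ⟨_, ⟨b, hb, rfl⟩, hgb⟩ := Set.not_disjoint_iff.1 hd
    change F.v0 ((g : Perm α) b) = 1 at hgb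
    refine Set.Subset.antisymm ?_ ?_
    · rintro _ ⟨c, hc, rfl⟩
      change F.v0 ((g : Perm α) c) = 1
      rw [key _ g.2 c b (by rw [(hc : F.v0 c = 1), (hb : F.v0 b = 1)])]
      exact hgb
    · intro c hc
      refine ⟨(g⁻¹ : F.G) • c, ?_, smul_inv_smul g c⟩
      change F.v0 (((g : Perm α))⁻¹ c) = 1
      rw [key _ (F.G.inv_mem g.2) c ((g : Perm α) b) (by rw [(hc : F.v0 c = 1), hgb])]
      have hb' : F.v0 b = 1 := hb
      simpa using hb'
  rcases (F.prim.isTrivialBlock_of_isBlock hblock).symm with h | h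
  · have := (Set.ext_iff.1 h (F.pt (1, 0))).2 trivial
    rw [hB] at this
    simp [v0_pt] at this
    norm_num at this
  · have hp' : 2 ≤ p := (Fact.out : p.Prime).two_le
    have h01 := h (show F.pt (0, 0) ∈ B by simp [hB, v0_pt])
      (show F.pt (0, 1) ∈ B by simp [hB, v0_pt])
    have := congrArg Prod.snd (F.pt.injective h01)
    exact zero_ne_one this

/-- The character transform of an invariant matrix. -/
noncomputable def hat (M : Matrix α α ℂ) (j : ZMod p) : Matrix (Fin 2) (Fin 2) ℂ :=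
  Matrix.of fun i l => ∑ x : ZMod p, M (F.pt (i, x)) (F.pt (l, 0)) * ψ p (j * x)

theorem hat_apply (M : Matrix α α ℂ) (j : ZMod p) (i l : Fin 2) :
    F.hat M j i l = ∑ x : ZMod p, M (F.pt (i, x)) (F.pt (l, 0)) * ψ p (j * x) := rfl

theorem hat_conjTranspose {M : Matrix α α ℂ} (hM : F.Inv M) (j : ZMod p) :
    F.hat M.conjTranspose j = (F.hat M j).conjTranspose := by
  ext i l
  rw [Matrix.conjTranspose_apply, hat_apply, hat_apply, ← starRingEnd_apply, map_sum]
  refine Fintype.sum_equiv (Equiv.neg (ZMod p)) _ _ fun x => ?_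
  rw [Equiv.neg_apply, (starRingEnd ℂ).map_mul, conj_ψ, Matrix.conjTranspose_apply, ← starRingEnd_apply,
    F.inv_shift' hM l i 0 x, zero_sub, mul_neg, neg_neg]

theorem dif_conjTranspose {M : Matrix α α ℂ} (hM : F.Inv M) :
    F.dif M.conjTranspose = conj (F.dif M) := by
  have key : ∀ i l, F.blk M.conjTranspose i l = conj (F.blk M l i) := by
    intro i l
    rw [blk, blk, map_sum]
    refine Fintype.sum_equiv (Equiv.neg (ZMod p)) _ _ fun x => ?_
    rw [Equiv.neg_apply, Matrix.conjTranspose_apply, ← starRingEnd_apply,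
      F.inv_shift' hM l i 0 x, zero_sub]
  rw [dif, dif, key, key, (F.blk_symm hM).2, map_sub]

/-- The common eigenvectors. -/
theorem exists_eigvec (hp : 3 ≤ Fintype.card α) (j : ZMod p) (hj : j ≠ 0) :
    ∃ u : Fin 2 → ℂ, u ≠ 0 ∧ ∀ M, F.Inv M → (F.hat M j).mulVec u = F.dif M • u := by
  obtain ⟨g, hg, i0, x0, hne⟩ := F.exists_break hp
  set w : α → ℂ := fun a => F.v0 (g a) with hw
  have hval : ∀ a, ∃ q : ℚ, F.v0 a = (q : ℂ) := fun a => by
    unfold v0; split_ifs
    · exact ⟨1, by simp⟩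
    · exact ⟨-1, by simp⟩
  choose q hq using hval
  refine ⟨fun l => ∑ y : ZMod p, w (F.pt (l, y)) * ψ p (j * y), ?_, fun M hM => ?_⟩
  · intro h
    apply hne
    have h0 : ∑ y : ZMod p, (q (g (F.pt (i0, y))) : ℂ) * ψ p (j * y) = 0 := by
      simp only [← hq]
      exact congrFun h i0
    rw [hq, hq, eq_of_sum_mul_ψ_eq_zero p _ hj h0 x0]
  · have hMw : M.mulVec w = F.dif M • w := by
      funext a
      have h := congrFun (F.mulVec_v0 hM) (g a)
      rw [Pi.smul_apply] at h ⊢
      rw [hw]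
      simp only
      rw [← h, Matrix.mulVec, Matrix.mulVec, dotProduct, dotProduct,
        ← Equiv.sum_comp g (fun b => M (g a) b * F.v0 b)]
      simp only [hM g hg]
    funext i
    rw [Pi.smul_apply, smul_eq_mul]
    simp only [Matrix.mulVec, dotProduct, hat_apply]
    rw [Finset.mul_sum]
    have hrhs : ∀ x : ZMod p, F.dif M * (w (F.pt (i, x)) * ψ p (j * x))
        = ∑ l : Fin 2, ∑ y : ZMod p,
          M (F.pt (i, x - y)) (F.pt (l, 0)) * w (F.pt (l, y)) * ψ p (j * x) := by
      intro x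
      have h := congrFun hMw (F.pt (i, x))
      rw [Pi.smul_apply, smul_eq_mul, Matrix.mulVec, dotProduct, F.sum_pt] at h
      rw [← mul_assoc, ← h, Finset.sum_mul]
      refine Finset.sum_congr rfl fun l _ => ?_
      rw [Finset.sum_mul]
      refine Finset.sum_congr rfl fun y _ => ?_
      rw [← F.inv_shift' hM]
    rw [Finset.sum_congr rfl (fun x _ => hrhs x), Finset.sum_comm]
    refine Finset.sum_congr rfl fun l _ => ?_
    rw [Finset.sum_mul, Finset.sum_comm]
    simp only [Finset.mul_sum]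
    rw [Finset.sum_comm]
    refine Finset.sum_congr rfl fun y _ => ?_
    refine Fintype.sum_equiv (Equiv.addRight y) _ _ fun x => ?_
    rw [Equiv.coe_addRight, add_sub_cancel_right, mul_add, AddChar.map_add_eq_mul]
    ring

theorem hat_mul {M N : Matrix α α ℂ} (hM : F.Inv M) (hN : F.Inv N) (j : ZMod p) :
    F.hat (M * N) j = F.hat M j * F.hat N j := by
  ext i l
  rw [Matrix.mul_apply, hat_apply]
  simp only [hat_apply, Matrix.mul_apply, F.sum_pt, Finset.sum_mul]
  rw [Finset.sum_comm]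
  refine Finset.sum_congr rfl fun k _ => ?_
  rw [Finset.sum_comm]
  conv_rhs => simp only [Finset.mul_sum]; rw [Finset.sum_comm]
  refine Finset.sum_congr rfl fun y _ => ?_
  refine Fintype.sum_equiv (Equiv.subRight y) _ _ fun x => ?_
  rw [Equiv.subRight_apply, F.inv_shift' hM i k x y,
    show j * x = j * (x - y) + j * y by ring, AddChar.map_add_eq_mul]
  ring

/-- The diagonal function. -/
noncomputable def fdiag (M : Matrix α α ℂ) (x : ZMod p) : ℂ :=
  M (F.pt (0, x)) (F.pt (0, 0)) + M (F.pt (1, x)) (F.pt (1, 0))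

theorem trace_hat (M : Matrix α α ℂ) (j : ZMod p) :
    (F.hat M j).trace = ∑ x : ZMod p, F.fdiag M x * ψ p (j * x) := by
  rw [Matrix.trace_fin_two, hat_apply, hat_apply, ← Finset.sum_add_distrib]
  simp [fdiag, add_mul]

/-- The second eigenvalue at a non-trivial character. -/
noncomputable def bval (M : Matrix α α ℂ) (j : ZMod p) : ℂ := (F.hat M j).trace - F.dif M

theorem hat_form (hp : 3 ≤ Fintype.card α) {j : ZMod p} (hj : j ≠ 0) :
    ∃ P : Matrix (Fin 2) (Fin 2) ℂ, P * P = P ∧ P.trace = 1 ∧ ∀ M, F.Inv M →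
      F.hat M j = F.dif M • (1 : Matrix (Fin 2) (Fin 2) ℂ) + (F.bval M j - F.dif M) • P := by
  obtain ⟨u, hu, h⟩ := F.exists_eigvec hp j hj
  refine ⟨orthProj u, orthProj_mul_self hu, trace_orthProj hu, fun M hM => ?_⟩
  have h' := h M.conjTranspose (F.star_mem hM)
  rw [F.hat_conjTranspose hM, F.dif_conjTranspose hM] at h'
  rw [bval, sub_sub, ← two_mul]
  exact eq_of_common_eigvec hu (h M hM) h'

theorem trace_mul_hat (hp : 3 ≤ Fintype.card α) {j : ZMod p} (hj : j ≠ 0)
    {M N : Matrix α α ℂ} (hM : F.Inv M) (hN : F.Inv N) :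
    (F.hat (M * N) j).trace = F.dif M * F.dif N + F.bval M j * F.bval N j := by
  obtain ⟨P, hP, htr, h⟩ := F.hat_form hp hj
  rw [F.hat_mul hM hN, h M hM, h N hN]
  simp only [add_mul, mul_add, Matrix.smul_mul, Matrix.mul_smul, one_mul, mul_one, hP, smul_smul,
    Matrix.trace_add, Matrix.trace_smul, htr, Matrix.trace_one, smul_eq_mul]
  simp only [Fintype.card_fin]
  push_cast
  ring

theorem val_mul {M N : Matrix α α ℂ} (hM : F.Inv M) :
    F.val (M * N) = F.val M * F.val N := by
  simp only [val, Matrix.mul_apply]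
  rw [Finset.sum_comm]
  simp only [← Finset.sum_mul, F.col_sum hM, ← Finset.mul_sum]

theorem dif_mul {M N : Matrix α α ℂ} (hM : F.Inv M) (hN : F.Inv N) :
    F.dif (M * N) = F.dif M * F.dif N := by
  have h := F.mulVec_v0 (F.alg.mul_mem hM hN)
  rw [← Matrix.mulVec_mulVec, F.mulVec_v0 hN, Matrix.mulVec_smul, F.mulVec_v0 hM, smul_smul] at h
  have := congrFun h F.o
  simp [o, v0_pt] at this
  linear_combination -this

theorem bval_mul (hp : 3 ≤ Fintype.card α) {j : ZMod p} (hj : j ≠ 0)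
    {M N : Matrix α α ℂ} (hM : F.Inv M) (hN : F.Inv N) :
    F.bval (M * N) j = F.bval M j * F.bval N j := by
  rw [bval, F.trace_mul_hat hp hj hM hN, F.dif_mul hM hN]
  ring

theorem trace_hat_zero {M : Matrix α α ℂ} (hM : F.Inv M) :
    (F.hat M 0).trace = F.val M + F.dif M := by
  rw [Matrix.trace_fin_two, hat_apply, hat_apply]
  simp only [zero_mul, AddChar.map_zero_eq_one, mul_one]
  change F.blk M 0 0 + F.blk M 1 1 = _
  rw [(F.blk_symm hM).1, ← F.blk_col hM 0, dif]
  ring

theorem trace_hat_eq {M : Matrix α α ℂ} (j : ZMod p) :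
    (F.hat M j).trace = F.bval M j + F.dif M := by
  rw [bval, sub_add_cancel]

/-- Inversion: traces of shifted diagonals. -/
theorem sum_trace_hat_mul {M : Matrix α α ℂ} (x : ZMod p) :
    ∑ j : ZMod p, (F.hat M j).trace * ψ p (-(j * x)) = p * F.fdiag M x := by
  simp only [trace_hat, Finset.sum_mul, mul_assoc, ← AddChar.map_add_eq_mul]
  rw [Finset.sum_comm]
  simp only [← Finset.mul_sum, ← sub_eq_add_neg, ← mul_sub, sum_ψ_mul, sub_eq_zero]
  rw [Finset.sum_eq_single x (fun b _ hb => by simp [hb]) (by simp)]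
  simp [mul_comm]

theorem matrix_eq_zero (hp : 3 ≤ Fintype.card α) {M : Matrix α α ℂ} (hM : F.Inv M)
    (hv : F.val M = 0) (hd : F.dif M = 0) (hb : ∀ j : ZMod p, j ≠ 0 → F.bval M j = 0) : M = 0 := by
  have hhat : ∀ j, F.hat M j = 0 := by
    intro j
    rcases eq_or_ne j 0 with rfl | hj
    · ext i l
      rw [hat_apply]
      simp only [zero_mul, AddChar.map_zero_eq_one, mul_one, Matrix.zero_apply]
      change F.blk M i l = 0
      have h1 := F.blk_col hM 0
      obtain ⟨h2, h3⟩ := F.blk_symm hM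
      rw [dif] at hd
      rw [hv] at h1
      have h00 : F.blk M 0 0 = 0 := by linear_combination (h1 + hd) / 2
      have h10 : F.blk M 1 0 = 0 := by linear_combination (h1 - hd) / 2
      fin_cases i <;> fin_cases l <;> simp [h2, h3, h00, h10]
    · obtain ⟨P, -, -, h⟩ := F.hat_form hp hj
      rw [h M hM, hd, hb j hj]
      simp
  ext a b
  obtain ⟨⟨i, x⟩, rfl⟩ := F.pt.surjective a
  obtain ⟨⟨l, y⟩, rfl⟩ := F.pt.surjective b
  rw [F.inv_shift' hM, Matrix.zero_apply]
  generalize x - y = z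
  have hp0 : (p : ℂ) ≠ 0 := by exact_mod_cast (Fact.out : p.Prime).ne_zero
  have h : ∑ j : ZMod p, F.hat M j i l * ψ p (-(j * z))
      = p * M (F.pt (i, z)) (F.pt (l, 0)) := by
    simp only [hat_apply, Finset.sum_mul, mul_assoc, ← AddChar.map_add_eq_mul]
    rw [Finset.sum_comm]
    simp only [← Finset.mul_sum, ← sub_eq_add_neg, ← mul_sub, sum_ψ_mul, sub_eq_zero]
    rw [Finset.sum_eq_single z (fun b _ hb => by simp [hb]) (by simp)]
    simp [mul_comm]
  simp only [hhat, Matrix.zero_apply, zero_mul, Finset.sum_const_zero] at h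
  exact (mul_eq_zero.1 h.symm).resolve_left hp0

end Frame

end Cfsg.Agent.H63.Wielandt
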