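import Mathlib
import Cfsg.Agent.H63.Wielandt.Frame

/-!
# Suborbits and their counting invariants

For a suborbit `C` of a frame, `r00` and `r10` count its points in the two `σ`-orbits, `aval` is
their difference and `f` is the diagonal function of the orbital matrix. The key identity is
`#{x | f x = 1} = 2 a (a + 1)`.
-/

set_option autoImplicit false
set_option linter.unusedSectionVars false

namespace Cfsg.Agent.H63.Wielandt

open Finset ComplexConjugate Equiv
open scoped Pointwise

variable {α : Type*} [Fintype α] [DecidableEq α] {p : ℕ} [Fact p.Prime] (F : Frame α p)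

namespace Frame

/-- The suborbits. -/
abbrev Q : Type _ := MulAction.orbitRel.Quotient (MulAction.stabilizer F.G F.o) α

noncomputable instance : Fintype F.Q := Fintype.ofFinite _

noncomputable instance : DecidableEq F.Q := Classical.decEq _

/-- An element moving a point to the base point. -/
noncomputable def mvr (y : α) : F.G := (MulAction.exists_smul_eq F.G y F.o).choose

theorem mvr_spec (y : α) : F.mvr y • y = F.o := (MulAction.exists_smul_eq F.G y F.o).choose_spec

/-- The suborbit of a pair. -/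
noncomputable def cl (x y : α) : F.Q := Quotient.mk'' (F.mvr y • x)

/-- The trivial suborbit. -/
noncomputable def q0 : F.Q := Quotient.mk'' F.o

theorem mk_eq_of_fix {g : F.G} (hg : g • F.o = F.o) (x : α) :
    (Quotient.mk'' (g • x) : F.Q) = Quotient.mk'' x :=
  Quotient.sound' ⟨⟨g, hg⟩, rfl⟩

theorem cl_smul (g : F.G) (x y : α) : F.cl (g • x) (g • y) = F.cl x y := by
  unfold cl
  have e : F.mvr (g • y) • g • x = (F.mvr (g • y) * g * (F.mvr y)⁻¹) • (F.mvr y • x) := by
    rw [mul_smul, mul_smul, inv_smul_smul]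
  rw [e, F.mk_eq_of_fix]
  have h : (F.mvr y)⁻¹ • F.o = y := by rw [← F.mvr_spec y, inv_smul_smul]
  rw [mul_smul, mul_smul, h, F.mvr_spec]

theorem cl_base (x : α) : F.cl x F.o = Quotient.mk'' x := F.mk_eq_of_fix (F.mvr_spec _) x

theorem cl_eq_q0_iff (x y : α) : F.cl x y = F.q0 ↔ x = y := by
  constructor
  · intro h
    obtain ⟨h', hh⟩ := Quotient.exact' h
    have h1 : F.mvr y • x = F.o := by
      rw [← (hh : (h' : F.G) • F.o = F.mvr y • x)]
      exact h'.2
    exact smul_left_cancel _ (h1.trans (F.mvr_spec y).symm)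
  · rintro rfl
    rw [cl, F.mvr_spec, q0]

/-- The invariant matrix with given values on the suborbits. -/
noncomputable def mat (φ : F.Q → ℂ) : Matrix α α ℂ := Matrix.of fun x y => φ (F.cl x y)

theorem mat_apply (φ : F.Q → ℂ) (x y : α) : F.mat φ x y = φ (F.cl x y) := rfl

theorem inv_mat (φ : F.Q → ℂ) : F.Inv (F.mat φ) := fun g hg x y => by
  rw [mat_apply, mat_apply, ← F.cl_smul ⟨g, hg⟩ x y]
  rfl

theorem exists_mat {M : Matrix α α ℂ} (hM : F.Inv M) : ∃ φ, F.mat φ = M := by
  refine ⟨fun C => M (Quotient.out C) F.o, ?_⟩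
  ext x y
  have h : (Quotient.mk'' (Quotient.out (F.cl x y)) : F.Q) = Quotient.mk'' (F.mvr y • x) :=
    Quotient.out_eq' _
  obtain ⟨h', hh⟩ := Quotient.exact' h
  have hh' : ((h' : F.G) : Perm α) ((F.mvr y : Perm α) x) = Quotient.out (F.cl x y) := hh
  have ho : ((h' : F.G) : Perm α) F.o = F.o := h'.2
  rw [mat_apply]
  calc M (Quotient.out (F.cl x y)) F.o
      = M (((h' : F.G) : Perm α) ((F.mvr y : Perm α) x)) (((h' : F.G) : Perm α) F.o) :=
        congrArg₂ M hh'.symm ho.symm
    _ = M ((F.mvr y : Perm α) x) F.o := hM _ (h' : F.G).2 _ _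
    _ = M ((F.mvr y : Perm α) x) ((F.mvr y : Perm α) y) :=
        congrArg _ (F.mvr_spec y : (F.mvr y : Perm α) y = F.o).symm
    _ = M x y := hM _ (F.mvr y).2 _ _

/-- The orbital matrix of a suborbit. -/
noncomputable def orb (C : F.Q) : Matrix α α ℂ := F.mat (Pi.single C 1)

theorem orb_apply (C : F.Q) (x y : α) : F.orb C x y = if F.cl x y = C then 1 else 0 := by
  rw [orb, mat_apply, Pi.single_apply]

theorem inv_orb (C : F.Q) : F.Inv (F.orb C) := F.inv_mat _

/-- Size of a suborbit. -/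
noncomputable def kval (C : F.Q) : ℕ := #{x : α | F.cl x F.o = C}

/-- Counts in the blocks. -/
noncomputable def r (C : F.Q) (i l : Fin 2) : ℕ :=
  #{x : ZMod p | F.cl (F.pt (i, x)) (F.pt (l, 0)) = C}

/-- The integer eigenvalue. -/
noncomputable def aval (C : F.Q) : ℤ := (F.r C 0 0 : ℤ) - F.r C 1 0

/-- The diagonal function. -/
noncomputable def f (C : F.Q) (x : ZMod p) : ℕ :=
  (if F.cl (F.pt (0, x)) (F.pt (0, 0)) = C then 1 else 0) +
    (if F.cl (F.pt (1, x)) (F.pt (1, 0)) = C then 1 else 0)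

theorem val_orb (C : F.Q) : F.val (F.orb C) = F.kval C := by
  simp only [val, orb_apply, kval, Finset.sum_boole]

theorem blk_orb (C : F.Q) (i l : Fin 2) : F.blk (F.orb C) i l = F.r C i l := by
  simp only [blk, orb_apply, r, Finset.sum_boole]

theorem dif_orb (C : F.Q) : F.dif (F.orb C) = (F.aval C : ℂ) := by
  rw [dif, blk_orb, blk_orb, aval]; push_cast; rfl

theorem fdiag_orb (C : F.Q) (x : ZMod p) : F.fdiag (F.orb C) x = (F.f C x : ℂ) := by
  simp only [fdiag, orb_apply, f]; push_cast; rfl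

theorem r_symm (C : F.Q) : F.r C 1 1 = F.r C 0 0 ∧ F.r C 0 1 = F.r C 1 0 := by
  obtain ⟨h1, h2⟩ := F.blk_symm (F.inv_orb C)
  rw [blk_orb, blk_orb] at h1 h2
  exact ⟨by exact_mod_cast h1, by exact_mod_cast h2⟩

theorem kval_eq (C : F.Q) : F.kval C = F.r C 0 0 + F.r C 1 0 := by
  have h := F.blk_col (F.inv_orb C) 0
  rw [blk_orb, blk_orb, val_orb] at h
  exact_mod_cast h.symm

theorem kval_pos (C : F.Q) : 0 < F.kval C := by
  refine Finset.card_pos.2 ⟨Quotient.out C, ?_⟩
  simp only [Finset.mem_filter, Finset.mem_univ, true_and, cl_base]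
  exact Quotient.out_eq' C

theorem sum_f (C : F.Q) : ∑ x, F.f C x = 2 * F.r C 0 0 := by
  simp only [f, Finset.sum_add_distrib, Finset.sum_boole]
  change (F.r C 0 0 : ℕ) + F.r C 1 1 = _
  rw [(F.r_symm C).1]; ring

theorem f_le_two (C : F.Q) (x : ZMod p) : F.f C x ≤ 2 := by
  unfold f; split_ifs <;> omega

theorem f_zero {C : F.Q} (hC : C ≠ F.q0) : F.f C 0 = 0 := by
  unfold f
  rw [(F.cl_eq_q0_iff _ _).2 rfl, (F.cl_eq_q0_iff _ _).2 rfl, if_neg (Ne.symm hC)]

theorem sum_over_f {x : ZMod p} (hx : x ≠ 0) : ∑ C ∈ univ.erase F.q0, F.f C x = 2 := by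
  have hne : ∀ i : Fin 2, F.cl (F.pt (i, x)) (F.pt (i, 0)) ≠ F.q0 := fun i h => by
    rw [cl_eq_q0_iff] at h
    exact hx (congrArg Prod.snd (F.pt.injective h))
  simp only [f, Finset.sum_add_distrib, Finset.sum_ite_eq, Finset.mem_erase, ne_eq, hne,
    not_false_eq_true, Finset.mem_univ, and_self, if_true]

/-- The number of points where `f` is `1`. -/
noncomputable def m (C : F.Q) : ℕ := #{x : ZMod p | F.f C x = 1}

theorem sum_f_sq (C : F.Q) : ∑ x, F.f C x ^ 2 + F.m C = 2 * ∑ x, F.f C x := by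
  rw [m, Finset.card_filter, Finset.mul_sum, ← Finset.sum_add_distrib]
  refine Finset.sum_congr rfl fun x _ => ?_
  have := F.f_le_two C x
  interval_cases h : F.f C x <;> simp

theorem m_le_sum (C : F.Q) : F.m C ≤ 2 * F.r C 0 0 := by
  rw [← F.sum_f C, m, Finset.card_filter]
  refine Finset.sum_le_sum fun x _ => ?_
  split_ifs with h <;> omega

theorem three_le_card (F : Frame α p) : 3 ≤ Fintype.card α := by
  have := Fintype.card_congr F.pt
  rw [Fintype.card_prod, Fintype.card_fin, ZMod.card] at this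
  have := (Fact.out : p.Prime).two_le
  omega

theorem bval_conjTranspose {M : Matrix α α ℂ} (hM : F.Inv M) (j : ZMod p) :
    F.bval M.conjTranspose j = conj (F.bval M j) := by
  rw [bval, bval, F.hat_conjTranspose hM, F.dif_conjTranspose hM, Matrix.trace_conjTranspose,
    map_sub, ← starRingEnd_apply]

/-- Parseval. -/
theorem parseval (g : ZMod p → ℂ) :
    ∑ j : ZMod p, (∑ x, g x * ψ p (j * x)) * conj (∑ x, g x * ψ p (j * x))
      = p * ∑ x, g x * conj (g x) := by
  simp only [map_sum, (starRingEnd ℂ).map_mul, conj_ψ, Finset.mul_sum, Finset.sum_mul]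
  rw [Finset.sum_comm]
  refine Finset.sum_congr rfl fun x _ => ?_
  rw [Finset.sum_comm]
  have h : ∀ y, ∑ j : ZMod p, g y * ψ p (j * y) * (conj (g x) * ψ p (-(j * x)))
      = g y * conj (g x) * (if y - x = 0 then (p : ℂ) else 0) := by
    intro y
    rw [← sum_ψ_mul, Finset.mul_sum]
    refine Finset.sum_congr rfl fun j _ => ?_
    rw [show j * (y - x) = j * y + -(j * x) by ring, AddChar.map_add_eq_mul]
    ring
  simp only [h, sub_eq_zero]
  rw [Finset.sum_eq_single x (fun b _ hb => by simp [hb]) (by simp)]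
  simp; ring

/-- **The key identity**: `#{f = 1} = 2 a (a + 1)`. -/
theorem m_eq {C : F.Q} (hC : C ≠ F.q0) : (F.m C : ℤ) = 2 * F.aval C * (F.aval C + 1) := by
  have hp3 := F.three_le_card
  set A := F.orb C with hA
  have hA' := F.inv_orb C
  set k : ℂ := (F.kval C : ℂ)
  set a : ℂ := (F.aval C : ℂ)
  have hT := F.sum_trace_hat_mul (M := A * A.conjTranspose) 0
  simp only [mul_zero, neg_zero, AddChar.map_zero_eq_one, mul_one] at hT
  have hdiag : ∀ y, (A * A.conjTranspose) y y = k := by
    intro y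
    rw [Matrix.mul_apply]
    refine Eq.trans ?_ ((F.row_sum hA' y).trans (F.val_orb C))
    refine Finset.sum_congr rfl fun z _ => ?_
    rw [Matrix.conjTranspose_apply, hA, orb_apply]
    split_ifs <;> simp
  rw [fdiag, hdiag, hdiag, ← Finset.add_sum_erase _ _ (Finset.mem_univ (0 : ZMod p)),
    F.trace_hat_zero (F.alg.mul_mem hA' (F.star_mem hA')), F.val_mul hA',
    F.dif_mul hA' (F.star_mem hA'), F.dif_conjTranspose hA', F.dif_orb] at hT
  have hval : F.val A.conjTranspose = k := by
    have h := F.row_sum hA' F.o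
    rw [F.val_orb] at h
    refine Eq.trans ?_ h
    refine Finset.sum_congr rfl fun z _ => ?_
    rw [Matrix.conjTranspose_apply, hA, orb_apply]
    split_ifs <;> simp
  have hca : conj a = a := map_intCast (starRingEnd ℂ) _
  have hvA : F.val A = k := F.val_orb C
  rw [hval, hvA, hca] at hT
  -- the non-trivial characters
  set T : ZMod p → ℂ := fun j => ∑ x, (F.f C x : ℂ) * ψ p (j * x) with hTdef
  have hTA : ∀ j, (F.hat A j).trace = T j := fun j => by
    rw [F.trace_hat]; simp only [hA, F.fdiag_orb]; rfl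
  have hprod : ∀ j ∈ univ.erase (0 : ZMod p), (F.hat (A * A.conjTranspose) j).trace
      = a * a + (T j * conj (T j) - a * T j - a * conj (T j) + a * a) := by
    intro j hj
    rw [F.trace_mul_hat hp3 (Finset.mem_erase.1 hj).1 hA' (F.star_mem hA'),
      F.dif_conjTranspose hA', F.dif_orb, F.bval_conjTranspose hA', bval, hTA, F.dif_orb,
      map_sub, hca]
    ring
  rw [Finset.sum_congr rfl hprod] at hT
  simp only [Finset.sum_add_distrib, Finset.sum_sub_distrib, ← Finset.mul_sum, Finset.sum_const,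
    Finset.card_erase_of_mem (Finset.mem_univ (0 : ZMod p)), Finset.card_univ, ZMod.card,
    nsmul_eq_mul] at hT
  have hsf : ∑ x, (F.f C x : ℂ) = k + a := by
    have h := F.sum_f C
    have h2 := F.kval_eq C
    have : (∑ x, (F.f C x : ℂ)) = (2 * F.r C 0 0 : ℕ) := by rw [← h]; push_cast; rfl
    rw [this]
    simp only [k, a, h2, aval]
    push_cast; ring
  have hT0 : T 0 = k + a := by simp only [hTdef, zero_mul, AddChar.map_zero_eq_one, mul_one, hsf]
  have hsumT : ∑ j, T j = 0 := by
    simp only [hTdef]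
    rw [Finset.sum_comm]
    simp only [← Finset.mul_sum, sum_ψ_mul]
    refine Finset.sum_eq_zero fun x _ => ?_
    rcases eq_or_ne x 0 with rfl | hx
    · simp [F.f_zero hC]
    · simp [hx]
  have hsumTc : ∑ j, conj (T j) = 0 := by rw [← map_sum, hsumT, map_zero]
  have hpar := parseval (fun x => (F.f C x : ℂ))
  have hsq : ∑ x, (F.f C x : ℂ) * conj (F.f C x : ℂ) = 2 * (k + a) - (F.m C : ℂ) := by
    have h : ((∑ x, F.f C x ^ 2 + F.m C : ℕ) : ℂ) = ((2 * ∑ x, F.f C x : ℕ) : ℂ) := by
      rw [F.sum_f_sq C]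
    push_cast at h
    rw [hsf] at h
    simp only [map_natCast, ← sq]
    linear_combination h
  rw [hsq] at hpar
  rw [← Finset.add_sum_erase _ _ (Finset.mem_univ (0 : ZMod p))] at hsumT hsumTc hpar
  rw [hT0] at hsumT
  rw [show conj (T 0) = k + a by rw [hT0, map_add, hca]; simp [k]] at hsumTc
  change T 0 * conj (T 0) + ∑ j ∈ univ.erase (0 : ZMod p), T j * conj (T j) = _ at hpar
  rw [hT0, map_add, hca, show conj k = k by simp [k]] at hpar
  have hp1 : ((p - 1 : ℕ) : ℂ) = (p : ℂ) - 1 := by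
    rw [Nat.cast_sub (Fact.out : p.Prime).one_le]; simp
  rw [hp1] at hT
  have hp0 : (p : ℂ) ≠ 0 := by exact_mod_cast (Fact.out : p.Prime).ne_zero
  have key : (p : ℂ) * ((F.m C : ℂ) - 2 * a * (a + 1)) = 0 := by
    linear_combination (-1 : ℂ) * hT + hpar - a * hsumT - a * hsumTc
  have := (mul_eq_zero.1 key).resolve_left hp0
  have h2 : ((F.m C : ℤ) : ℂ) = ((2 * F.aval C * (F.aval C + 1) : ℤ) : ℂ) := by
    push_cast
    linear_combination this
  exact_mod_cast h2

theorem sum_r00 : ∑ C ∈ univ.erase F.q0, F.r C 0 0 = p - 1 := by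
  have h : ∑ C ∈ univ.erase F.q0, (2 * F.r C 0 0) = 2 * (p - 1) := by
    simp only [← F.sum_f]
    rw [Finset.sum_comm, ← Finset.add_sum_erase _ _ (Finset.mem_univ (0 : ZMod p)),
      Finset.sum_eq_zero (fun C hC => F.f_zero (Finset.mem_erase.1 hC).1), zero_add,
      Finset.sum_congr rfl (fun x hx => F.sum_over_f (Finset.mem_erase.1 hx).1), Finset.sum_const,
      Finset.card_erase_of_mem (Finset.mem_univ (0 : ZMod p)), Finset.card_univ, ZMod.card,
      smul_eq_mul, mul_comm]
  rw [← Finset.mul_sum] at h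
  omega

theorem sum_r10 : ∑ C ∈ univ.erase F.q0, F.r C 1 0 = p := by
  have hne : ∀ x, F.cl (F.pt (1, x)) (F.pt (0, 0)) ≠ F.q0 := fun x h => by
    rw [cl_eq_q0_iff] at h
    exact absurd (congrArg Prod.fst (F.pt.injective h)) (by simp)
  simp only [r]
  rw [← Finset.card_eq_sum_card_fiberwise (fun x _ => Finset.mem_erase.2 ⟨hne x, Finset.mem_univ _⟩),
    Finset.card_univ, ZMod.card]

theorem sum_aval : ∑ C ∈ univ.erase F.q0, F.aval C = -1 := by
  simp only [aval, Finset.sum_sub_distrib, ← Nat.cast_sum, F.sum_r00, F.sum_r10]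
  have := (Fact.out : p.Prime).one_le
  omega

/-- A suborbit of a primitive group of composite degree has more than one point. -/
theorem r00_pos {C : F.Q} (hC : C ≠ F.q0) : 0 < F.r C 0 0 := by
  by_contra h0
  have h00 : F.r C 0 0 = 0 := by omega
  have hm := F.m_eq hC
  have hml := F.m_le_sum C
  have hk := F.kval_pos C
  have hk' := F.kval_eq C
  rw [h00] at hml hk'
  have hm0 : F.m C = 0 := by omega
  rw [hm0, aval, h00] at hm
  have hk1 : F.kval C = 1 := by
    push_cast at hm
    rcases mul_eq_zero.1 hm.symm with h | h <;> omega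
  obtain ⟨b, hb⟩ := Finset.card_eq_one.1 hk1
  have hbo : F.cl b F.o = C := by
    have := hb ▸ Finset.mem_singleton_self b
    simpa using this
  have hne : b ≠ F.o := fun h => hC (by rw [← hbo, h, (F.cl_eq_q0_iff _ _).2 rfl])
  haveI := F.prim
  haveI : Nontrivial α := Fintype.one_lt_card_iff_nontrivial.1 (by have := F.three_le_card; omega)
  set S := MulAction.stabilizer F.G F.o
  have hle : S ≤ MulAction.stabilizer F.G b := by
    intro g hg
    have : F.cl (g • b) F.o = C := by
      conv_lhs => rw [← (hg : g • F.o = F.o)]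
      rw [F.cl_smul, hbo]
    have hmem : g • b ∈ ({x : α | F.cl x F.o = C} : Finset α) := by simp [this]
    rw [hb, Finset.mem_singleton] at hmem
    exact hmem
  have hcoat := MulAction.IsPreprimitive.isCoatom_stabilizer_of_isPreprimitive (G := F.G) F.o
  obtain ⟨g, hg⟩ := MulAction.exists_smul_eq F.G F.o b
  have heq : MulAction.stabilizer F.G b = S := by
    refine le_antisymm ?_ hle
    intro x hx
    by_contra hxS
    have htop := hcoat.2 (MulAction.stabilizer F.G b) (lt_of_le_not_ge hle fun h => hxS (h hx))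
    have h1 : ∀ y : F.G, y • b = b := fun y => (htop ▸ Subgroup.mem_top y :
      y ∈ MulAction.stabilizer F.G b)
    exact hne (by have := h1 g⁻¹; rw [← hg, inv_smul_smul] at this; rw [this, hg])
  have hgN : g ∈ Subgroup.normalizer (S : Set F.G) := by
    rw [Subgroup.mem_normalizer_iff]
    intro x
    conv_rhs => rw [← heq]
    rw [MulAction.mem_stabilizer_iff, MulAction.mem_stabilizer_iff, mul_smul, mul_smul,
      show g⁻¹ • b = F.o by rw [← hg, inv_smul_smul], ← hg, smul_left_cancel_iff]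
  have hgS : g ∉ S := fun h => hne (hg.symm.trans h)
  have hN : Subgroup.normalizer (S : Set F.G) = ⊤ :=
    hcoat.2 _ (lt_of_le_not_ge Subgroup.le_normalizer fun h => hgS (h hgN))
  haveI hnorm : S.Normal := Subgroup.normalizer_eq_top_iff.1 hN
  -- the stabiliser is normal, hence trivial, hence `⊥` is maximal in a group of order `2p`
  have hbot : S = ⊥ := by
    refine (Subgroup.eq_bot_iff_forall _).2 fun x hx => Subtype.ext (Equiv.ext fun z => ?_)
    obtain ⟨y, hy⟩ := MulAction.exists_smul_eq F.G F.o z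
    have h := hnorm.conj_mem x hx y⁻¹
    rw [inv_inv] at h
    have h2 : (y⁻¹ * x * y) • F.o = F.o := h
    rw [mul_smul, mul_smul, hy, inv_smul_eq_iff, hy] at h2
    exact h2
  have hσ : (⟨F.σ, F.σ_mem⟩ : F.G) • F.o = F.pt (0, 1) := by
    change F.σ (F.pt (0, 0)) = _
    rw [F.σ_pt, zero_add]
  set P := Subgroup.zpowers (⟨F.σ, F.σ_mem⟩ : F.G)
  have hPtop : P = ⊤ := hcoat.2 P (by
    change S < P
    rw [hbot, bot_lt_iff_ne_bot]
    intro h
    rw [Subgroup.zpowers_eq_bot] at h
    rw [h, one_smul] at hσ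
    exact zero_ne_one (congrArg Prod.snd (F.pt.injective hσ)))
  obtain ⟨y, hy⟩ := MulAction.exists_smul_eq F.G F.o (F.pt (1, 0))
  obtain ⟨n, hn⟩ : ∃ n : ℕ, (⟨F.σ, F.σ_mem⟩ : F.G) ^ n = y := by
    have hmem : y ∈ P := hPtop ▸ Subgroup.mem_top y
    exact mem_powers_iff_mem_zpowers.2 hmem
  rw [← hn] at hy
  change (F.σ ^ n) (F.pt (0, 0)) = _ at hy
  rw [F.σ_pow_pt] at hy
  exact absurd (congrArg Prod.fst (F.pt.injective hy)) (by simp)

end Frame

end Cfsg.Agent.H63.Wielandt
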