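import Mathlib
import Cfsg.Agent.H63.Wielandt.Suborbits

/-!
# The multipliers of the normalizer of `σ`
-/

set_option autoImplicit false
set_option linter.unusedSectionVars false

namespace Cfsg.Agent.H63.Wielandt

open Finset ComplexConjugate Equiv
open scoped Pointwise

variable {α : Type*} [Fintype α] [DecidableEq α] {p : ℕ} [Fact p.Prime] (F : Frame α p)

/-- An invariant set of non-zero residues has size divisible by the order of the group. -/
theorem card_dvd_of_invariant (H : Subgroup (ZMod p)ˣ) (S : Finset (ZMod p)) (h0 : (0 : ZMod p) ∉ S)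
    (hS : ∀ c ∈ H, ∀ x ∈ S, (c : ZMod p) * x ∈ S) : Nat.card H ∣ S.card := by
  classical
  set T : Finset (ZMod p)ˣ := univ.filter fun u : (ZMod p)ˣ => (u : ZMod p) ∈ S with hT
  have hST : S.card = T.card := by
    symm
    refine Finset.card_bij (fun u _ => (u : ZMod p)) (fun u hu => (Finset.mem_filter.1 hu).2)
      (fun u _ v _ h => Units.ext h) fun x hx => ?_
    refine ⟨Units.mk0 x (fun h => h0 (h ▸ hx)), Finset.mem_filter.2 ⟨Finset.mem_univ _, ?_⟩, rfl⟩
    simpa using hx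
  rw [hST]
  let π : (ZMod p)ˣ → (ZMod p)ˣ ⧸ H := QuotientGroup.mk
  rw [Finset.card_eq_sum_card_image π T]
  refine Finset.dvd_sum fun q hq => ?_
  obtain ⟨u, hu, rfl⟩ := Finset.mem_image.1 hq
  refine dvd_of_eq ?_
  rw [Nat.card_eq_fintype_card, ← Finset.card_univ]
  refine Finset.card_bij (fun c _ => u * (c : (ZMod p)ˣ)) (fun c _ => ?_)
    (fun c _ c' _ h => Subtype.ext (mul_left_cancel h)) fun v hv => ?_
  · rw [Finset.mem_filter]
    refine ⟨Finset.mem_filter.2 ⟨Finset.mem_univ _, ?_⟩, ?_⟩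
    · rw [mul_comm, Units.val_mul]
      exact hS _ c.2 _ (Finset.mem_filter.1 hu).2
    · exact QuotientGroup.mk_mul_of_mem _ c.2
  · obtain ⟨-, hv2⟩ := Finset.mem_filter.1 hv
    exact ⟨⟨u⁻¹ * v, QuotientGroup.eq.1 hv2.symm⟩, Finset.mem_univ _, by simp⟩

namespace Frame

/-- `h` conjugates `σ` to `σ ^ c`. -/
def Mult (h : Perm α) (c : (ZMod p)ˣ) : Prop :=
  ∀ (i : Fin 2) (x : ZMod p), ∃ i' x', h (F.pt (i, x)) = F.pt (i', x') ∧
    ∀ y : ZMod p, h (F.pt (i, x + y)) = F.pt (i', x' + c * y)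

theorem mult_one : F.Mult 1 1 := fun i x => ⟨i, x, rfl, fun y => by simp⟩

theorem Mult.mul {h h' : Perm α} {c c' : (ZMod p)ˣ} (H : F.Mult h c) (H' : F.Mult h' c') :
    F.Mult (h * h') (c * c') := by
  intro i x
  obtain ⟨i', x', e1, e2⟩ := H' i x
  obtain ⟨i'', x'', e3, e4⟩ := H i' x'
  refine ⟨i'', x'', by rw [Perm.mul_apply, e1, e3], fun y => ?_⟩
  rw [Perm.mul_apply, e2, e4, Units.val_mul, mul_assoc]

theorem Mult.inv {h : Perm α} {c : (ZMod p)ˣ} (H : F.Mult h c) : F.Mult h⁻¹ c⁻¹ := by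
  intro i x
  obtain ⟨⟨i', x'⟩, he⟩ := F.pt.surjective (h⁻¹ (F.pt (i, x)))
  obtain ⟨i'', x'', e1, e2⟩ := H i' x'
  have hh : F.pt (i'', x'') = F.pt (i, x) := by rw [← e1, he]; simp
  obtain ⟨rfl, rfl⟩ := Prod.mk.injEq .. ▸ F.pt.injective hh
  refine ⟨i', x', he.symm, fun y => ?_⟩
  apply h.injective
  rw [e2 ((c⁻¹ : (ZMod p)ˣ) * y), ← mul_assoc, Units.mul_inv, one_mul]
  simp

theorem Mult.unique {h : Perm α} {c c' : (ZMod p)ˣ} (H : F.Mult h c) (H' : F.Mult h c') :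
    c = c' := by
  obtain ⟨i1, x1, e1, e2⟩ := H 0 0
  obtain ⟨i2, x2, f1, f2⟩ := H' 0 0
  have h12 := F.pt.injective (e1.symm.trans f1)
  obtain ⟨rfl, rfl⟩ := Prod.mk.injEq .. ▸ h12
  have := congrArg Prod.snd (F.pt.injective ((e2 1).symm.trans (f2 1)))
  simp only [mul_one] at this
  exact Units.ext (add_left_cancel this)

/-- The normalizer of `⟨σ⟩` in the group. -/
def nrm : Subgroup F.G where
  carrier := {g | ∃ c, F.Mult (g : Perm α) c}
  one_mem' := ⟨1, F.mult_one⟩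
  mul_mem' := fun ⟨c, hc⟩ ⟨c', hc'⟩ => ⟨c * c', Mult.mul F hc hc'⟩
  inv_mem' := fun ⟨c, hc⟩ => ⟨c⁻¹, Mult.inv F hc⟩

/-- Multipliers of elements fixing the base point. -/
def mults : Subgroup (ZMod p)ˣ where
  carrier := {c | ∃ g ∈ F.G, F.Mult g c ∧ g F.o = F.o}
  one_mem' := ⟨1, F.G.one_mem, F.mult_one, rfl⟩
  mul_mem' := fun ⟨g, hg, hc, ho⟩ ⟨g', hg', hc', ho'⟩ =>
    ⟨g * g', F.G.mul_mem hg hg', Mult.mul F hc hc', by rw [Perm.mul_apply, ho', ho]⟩
  inv_mem' := fun {_} ⟨g, hg, hc, ho⟩ =>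
    ⟨g⁻¹, F.G.inv_mem hg, Mult.inv F hc, by rw [Perm.inv_eq_iff_eq, ho]⟩

theorem apply_orbit_zero {g : Perm α} {c : (ZMod p)ˣ} (hc : F.Mult g c) (ho : g F.o = F.o)
    (x : ZMod p) : g (F.pt (0, x)) = F.pt (0, (c : ZMod p) * x) := by
  obtain ⟨i', x', e1, e2⟩ := hc 0 0
  have h := F.pt.injective (e1.symm.trans ho)
  obtain ⟨rfl, rfl⟩ := Prod.mk.injEq .. ▸ h
  simpa using e2 x

theorem apply_orbit_one {g : Perm α} {c : (ZMod p)ˣ} (hc : F.Mult g c) (ho : g F.o = F.o) :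
    ∃ z, ∀ x, g (F.pt (1, x)) = F.pt (1, (c : ZMod p) * x + z) := by
  obtain ⟨i', x', e1, e2⟩ := hc 1 0
  have hi : i' = 1 := by
    by_contra hne
    obtain rfl : i' = 0 := by
      revert hne; revert i'; intro i' _ _ h; fin_cases i' <;> simp_all
    have := F.apply_orbit_zero hc ho ((c⁻¹ : (ZMod p)ˣ) * x')
    rw [← mul_assoc, Units.mul_inv, one_mul, ← e1] at this
    exact absurd (congrArg Prod.fst (F.pt.injective (g.injective this))) (by simp)
  subst hi
  exact ⟨x', fun x => by have := e2 x; rw [zero_add] at this; rw [this, add_comm]⟩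

theorem cl_map {g : Perm α} (hg : g ∈ F.G) (x y : α) : F.cl (g x) (g y) = F.cl x y :=
  F.cl_smul ⟨g, hg⟩ x y

theorem f_mults {c : (ZMod p)ˣ} (hc : c ∈ F.mults) (C : F.Q) (x : ZMod p) :
    F.f C ((c : ZMod p) * x) = F.f C x := by
  obtain ⟨g, hg, hm, ho⟩ := hc
  obtain ⟨z, hz⟩ := F.apply_orbit_one hm ho
  have h0 := F.apply_orbit_zero hm ho
  have e0 : F.cl (F.pt (0, (c : ZMod p) * x)) (F.pt (0, 0)) = F.cl (F.pt (0, x)) (F.pt (0, 0)) := by
    rw [← F.cl_map hg (F.pt (0, x)) (F.pt (0, 0)), h0, h0, mul_zero]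
  have e1 : F.cl (F.pt (1, (c : ZMod p) * x)) (F.pt (1, 0)) = F.cl (F.pt (1, x)) (F.pt (1, 0)) := by
    obtain ⟨n, hn⟩ := ZMod.natCast_zmod_surjective z
    rw [← F.cl_map hg (F.pt (1, x)) (F.pt (1, 0)), hz, hz, mul_zero, zero_add,
      ← F.cl_map (F.G.pow_mem F.σ_mem n) (F.pt (1, (c : ZMod p) * x)) (F.pt (1, 0)),
      F.σ_pow_pt, F.σ_pow_pt, hn, zero_add]
  simp only [f, e0, e1]

theorem dvd_r00 {C : F.Q} (hC : C ≠ F.q0) : Nat.card F.mults ∣ F.r C 0 0 := by
  refine card_dvd_of_invariant F.mults _ ?_ ?_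
  · simp only [Finset.mem_filter, Finset.mem_univ, true_and]
    rw [(F.cl_eq_q0_iff _ _).2 rfl]
    exact Ne.symm hC
  · rintro c ⟨g, hg, hm, ho⟩ x hx
    simp only [Finset.mem_filter, Finset.mem_univ, true_and] at hx ⊢
    rw [← hx, ← F.cl_map hg (F.pt (0, x)) (F.pt (0, 0)), F.apply_orbit_zero hm ho,
      F.apply_orbit_zero hm ho, mul_zero]

theorem orbit_one_trivial (h : 2 ≤ #(univ.erase F.q0)) {g : Perm α} (hg : g ∈ F.G)
    (hm : F.Mult g 1) (ho : g F.o = F.o) : ∀ x, g (F.pt (1, x)) = F.pt (1, x) := by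
  obtain ⟨z, hz⟩ := F.apply_orbit_one hm ho
  rcases eq_or_ne z 0 with rfl | hz0
  · intro x; rw [hz]; simp
  exfalso
  have hconst : ∀ x : ZMod p, F.cl (F.pt (1, x)) F.o = F.cl (F.pt (1, 0)) F.o := by
    intro x
    have hstep : ∀ y : ZMod p, F.cl (F.pt (1, y + z)) F.o = F.cl (F.pt (1, y)) F.o := fun y => by
      conv_rhs => rw [← F.cl_map hg, ho, hz, Units.val_one, one_mul]
    have hn : ∀ n : ℕ, F.cl (F.pt (1, (n : ZMod p) * z)) F.o = F.cl (F.pt (1, 0)) F.o := by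
      intro n
      induction n with
      | zero => simp
      | succ n ih => rw [Nat.cast_succ, add_mul, one_mul, hstep, ih]
    obtain ⟨n, hn'⟩ := ZMod.natCast_zmod_surjective (x / z)
    rw [← hn n, hn', div_mul_cancel₀ x hz0]
  obtain ⟨C, hC, hC1⟩ := Finset.exists_mem_ne (s := univ.erase F.q0) (by omega)
    (F.cl (F.pt (1, 0)) F.o)
  rw [Finset.mem_erase] at hC
  have h10 : F.r C 1 0 = 0 := by
    rw [r, Finset.card_eq_zero, Finset.filter_eq_empty_iff]
    intro x _ hx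
    exact hC1 (hx.symm.trans (hconst x))
  have hm' := F.m_eq hC.1
  have hml := F.m_le_sum C
  have hpos := F.r00_pos hC.1
  rw [aval, h10] at hm'
  push_cast at hm'
  nlinarith

theorem card_nrm_le (h : 2 ≤ #(univ.erase F.q0)) : Nat.card F.nrm ≤ 2 * p * Nat.card F.mults := by
  classical
  have hstab : Nat.card (MulAction.stabilizer F.nrm F.o) ≤ Nat.card F.mults := by
    have hc : ∀ g : MulAction.stabilizer F.nrm F.o, ∃ c : F.mults,
        F.Mult (((g : F.nrm) : F.G) : Perm α) c := fun g => by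
      obtain ⟨c, hc⟩ := (g : F.nrm).2
      exact ⟨⟨c, _, ((g : F.nrm) : F.G).2, hc, g.2⟩, hc⟩
    choose c hc using hc
    refine Nat.card_le_card_of_injective c fun g g' hgg => ?_
    have hm := Mult.mul F (Mult.inv F (hc g)) (hc g')
    rw [hgg, inv_mul_cancel] at hm
    set u : Perm α := (((g : F.nrm) : F.G) : Perm α)⁻¹ * (((g' : F.nrm) : F.G) : Perm α) with hu
    have huG : u ∈ F.G := F.G.mul_mem (F.G.inv_mem ((g : F.nrm) : F.G).2) ((g' : F.nrm) : F.G).2
    have huo : u F.o = F.o := by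
      have e1 : (((g : F.nrm) : F.G) : Perm α) F.o = F.o := g.2
      have e2 : (((g' : F.nrm) : F.G) : Perm α) F.o = F.o := g'.2
      rw [hu, Perm.mul_apply, e2, Perm.inv_eq_iff_eq, e1]
    have hu1 : u = 1 := by
      ext a
      obtain ⟨⟨i, x⟩, rfl⟩ := F.pt.surjective a
      fin_cases i
      · simpa using F.apply_orbit_zero hm huo x
      · simpa using F.orbit_one_trivial h huG hm huo x
    rw [hu, inv_mul_eq_one] at hu1
    exact Subtype.ext (Subtype.ext (Subtype.ext hu1))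
  rw [← Subgroup.card_mul_index (MulAction.stabilizer F.nrm F.o), mul_comm]
  refine Nat.mul_le_mul ?_ hstab
  rw [MulAction.index_stabilizer]
  refine (Set.ncard_le_card _).trans (le_of_eq ?_)
  rw [Nat.card_eq_fintype_card, ← Fintype.card_congr F.pt, Fintype.card_prod, Fintype.card_fin,
    ZMod.card]

theorem dvd_aval {C : F.Q} (hC : C ≠ F.q0) :
    (Nat.card F.mults : ℤ) ∣ F.aval C ∨ (Nat.card F.mults : ℤ) ∣ F.aval C + 1 := by
  classical
  have h00 : (Nat.card F.mults : ℤ) ∣ (F.r C 0 0 : ℤ) := Int.natCast_dvd_natCast.2 (F.dvd_r00 hC)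
  obtain ⟨⟨c0, hc0⟩, hgen⟩ := IsCyclic.exists_generator (α := F.mults)
  by_cases hc1 : c0 = 1
  · have h1 : Nat.card F.mults = 1 := by
      refine Nat.card_eq_one_iff_unique.2 ⟨⟨fun a b => ?_⟩, ⟨1⟩⟩
      have key : ∀ a : F.mults, a = 1 := fun a => by
        obtain ⟨n, hn⟩ := hgen a
        rw [← hn]
        simp [Subtype.ext_iff, hc1]
      rw [key a, key b]
    left; rw [h1]; simp
  obtain ⟨g, hg, hm, ho⟩ := hc0
  obtain ⟨z, hz⟩ := F.apply_orbit_one hm ho
  have hne : (1 : ZMod p) - c0 ≠ 0 := sub_ne_zero.2 fun he => hc1 (Units.ext he.symm)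
  set xs : ZMod p := z / (1 - c0) with hxs
  have hfix : (c0 : ZMod p) * xs + z = xs := by
    rw [hxs]; field_simp; ring
  set S : Finset (ZMod p) := univ.filter fun y => F.cl (F.pt (1, xs + y)) F.o = C with hS
  have hScard : S.card = F.r C 1 0 := by
    refine Finset.card_equiv (Equiv.addLeft xs) fun y => ?_
    rw [hS, Finset.mem_filter, Finset.mem_filter]
    simp only [Finset.mem_univ, true_and]
    rfl
  have hstep : ∀ y, (c0 : ZMod p) * y ∈ S ↔ y ∈ S := by
    intro y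
    simp only [hS, Finset.mem_filter, Finset.mem_univ, true_and]
    rw [← F.cl_map hg (F.pt (1, xs + y)) F.o, ho, hz,
      show (c0 : ZMod p) * (xs + y) + z = ((c0 : ZMod p) * xs + z) + (c0 : ZMod p) * y by ring, hfix]
  have hinv : ∀ c ∈ F.mults, ∀ y ∈ S.erase 0, (c : ZMod p) * y ∈ S.erase 0 := by
    intro c hc y hy
    rw [Finset.mem_erase] at hy ⊢
    refine ⟨mul_ne_zero c.ne_zero hy.1, ?_⟩
    obtain ⟨n, hn⟩ := hgen ⟨c, hc⟩
    have hn' : c = c0 ^ n := by
      have := congrArg (fun u : F.mults => (u : (ZMod p)ˣ)) hn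
      simpa using this.symm
    have hz' : ∀ n : ℤ, ((c0 ^ n : (ZMod p)ˣ) : ZMod p) * y ∈ S := by
      intro n
      induction n using Int.induction_on with
      | zero => simpa using hy.2
      | succ n ih =>
        rw [zpow_add_one, mul_comm (c0 ^ (n : ℤ)), Units.val_mul, mul_assoc]
        exact (hstep _).2 ih
      | pred n ih =>
        refine (hstep _).1 ?_
        rw [← mul_assoc, ← Units.val_mul, ← zpow_one_add]
        simpa [add_comm, sub_eq_add_neg] using ih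
    rw [hn']
    exact hz' n
  have hd := Int.natCast_dvd_natCast.2
    (card_dvd_of_invariant F.mults (S.erase 0) (by simp) hinv)
  by_cases h0 : (0 : ZMod p) ∈ S
  · right
    have hc : F.r C 1 0 = (S.erase 0).card + 1 := by
      rw [← hScard, Finset.card_erase_add_one h0]
    rw [aval, hc]
    push_cast
    ring_nf
    exact dvd_sub h00 hd
  · left
    rw [Finset.erase_eq_of_notMem h0, hScard] at hd
    exact dvd_sub h00 hd

end Frame

end Cfsg.Agent.H63.Wielandt
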