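import Mathlib
import Cfsg.Agent.H63.Wielandt.Normalizer

/-!
# The Galois classes of characters and the norm inequality
-/

set_option autoImplicit false
set_option linter.unusedSectionVars false

namespace Cfsg.Agent.H63.Wielandt

open Finset ComplexConjugate Equiv
open scoped Pointwise

variable {α : Type*} [Fintype α] [DecidableEq α] {p : ℕ} [Fact p.Prime] (F : Frame α p)

namespace Frame

/-- Multipliers preserving all diagonal functions. -/
def sym : Subgroup (ZMod p)ˣ where
  carrier := {c | ∀ (C : F.Q) (x : ZMod p), F.f C ((c : ZMod p) * x) = F.f C x}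
  one_mem' := fun C x => by simp
  mul_mem' := fun {c d} hc hd C x => by rw [Units.val_mul, mul_assoc, hc, hd]
  inv_mem' := fun {c} hc C x => by rw [← hc, ← mul_assoc, Units.mul_inv, one_mul]

theorem mults_le_sym : F.mults ≤ F.sym := fun _ hc C x => F.f_mults hc C x

theorem mat_eq_sum (φ : F.Q → ℂ) : F.mat φ = ∑ C, φ C • F.orb C := by
  ext x y
  simp [mat_apply, orb_apply, Matrix.sum_apply]

theorem fdiag_sym {M : Matrix α α ℂ} (hM : F.Inv M) {c : (ZMod p)ˣ} (hc : c ∈ F.sym) (x : ZMod p) :
    F.fdiag M ((c : ZMod p) * x) = F.fdiag M x := by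
  obtain ⟨φ, rfl⟩ := F.exists_mat hM
  have key : ∀ x, F.fdiag (F.mat φ) x = ∑ C, φ C * (F.f C x : ℂ) := by
    intro x
    rw [mat_eq_sum, fdiag]
    simp only [Matrix.sum_apply, Matrix.smul_apply, smul_eq_mul, ← Finset.sum_add_distrib, ← mul_add]
    refine Finset.sum_congr rfl fun C _ => ?_
    rw [← F.fdiag_orb]; rfl
  rw [key, key]
  exact Finset.sum_congr rfl fun C _ => by rw [hc C x]

theorem bval_sym {M : Matrix α α ℂ} (hM : F.Inv M) {c : (ZMod p)ˣ} (hc : c ∈ F.sym) (j : ZMod p) :
    F.bval M ((c : ZMod p) * j) = F.bval M j := by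
  rw [bval, bval, F.trace_hat, F.trace_hat]
  congr 1
  refine Fintype.sum_equiv (Units.mulLeft c) _ _ fun x => ?_
  rw [Units.mulLeft_apply, F.fdiag_sym hM hc, show j * ((c : ZMod p) * x) = (c : ZMod p) * j * x by ring]

/-- The points at which the invariant matrices are evaluated. -/
abbrev Pts : Type := Bool ⊕ ((ZMod p)ˣ ⧸ F.sym)

noncomputable instance : Fintype F.Pts := Fintype.ofFinite _

noncomputable instance : DecidableEq F.Pts := Classical.decEq _

/-- The evaluation map. -/
noncomputable def ev (M : F.alg) : F.Pts → ℂ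
  | Sum.inl true => F.val (M : Matrix α α ℂ)
  | Sum.inl false => F.dif (M : Matrix α α ℂ)
  | Sum.inr q => F.bval (M : Matrix α α ℂ) ((Quotient.out q : (ZMod p)ˣ) : ZMod p)

theorem ev_mk (M : F.alg) (u : (ZMod p)ˣ) :
    F.ev M (Sum.inr (QuotientGroup.mk u)) = F.bval (M : Matrix α α ℂ) (u : ZMod p) := by
  set v : (ZMod p)ˣ := Quotient.out (QuotientGroup.mk u : (ZMod p)ˣ ⧸ F.sym) with hv
  have h : v⁻¹ * u ∈ F.sym := QuotientGroup.eq.1 (Quotient.out_eq' _)
  change F.bval _ (v : ZMod p) = _
  rw [← F.bval_sym M.2 h v, Units.val_mul, mul_comm ((v⁻¹ : (ZMod p)ˣ) : ZMod p), mul_assoc,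
    Units.inv_mul, mul_one]

theorem hat_one (j : ZMod p) : F.hat 1 j = 1 := by
  ext i l
  rw [hat_apply, Matrix.one_apply]
  simp only [Matrix.one_apply, ite_mul, one_mul, zero_mul, EmbeddingLike.apply_eq_iff_eq,
    Prod.mk.injEq]
  by_cases h : i = l
  · subst h; simp
  · simp [h]

theorem val_one : F.val 1 = 1 := by simp [val, Matrix.one_apply]

theorem dif_one : F.dif 1 = 1 := by
  simp [dif, blk, Matrix.one_apply, EmbeddingLike.apply_eq_iff_eq]

theorem bval_one (j : ZMod p) : F.bval 1 j = 1 := by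
  rw [bval, hat_one, dif_one, Matrix.trace_one, Fintype.card_fin]; norm_num

theorem val_add (M N : Matrix α α ℂ) : F.val (M + N) = F.val M + F.val N := by
  simp [val, Finset.sum_add_distrib]

theorem dif_add (M N : Matrix α α ℂ) : F.dif (M + N) = F.dif M + F.dif N := by
  simp [dif, blk, Finset.sum_add_distrib]; ring

theorem hat_add (M N : Matrix α α ℂ) (j : ZMod p) : F.hat (M + N) j = F.hat M j + F.hat N j := by
  ext i l; simp [hat_apply, add_mul, Finset.sum_add_distrib]

theorem val_smul (r : ℂ) (M : Matrix α α ℂ) : F.val (r • M) = r * F.val M := by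
  simp [val, Finset.mul_sum]

theorem dif_smul (r : ℂ) (M : Matrix α α ℂ) : F.dif (r • M) = r * F.dif M := by
  simp [dif, blk, Finset.mul_sum, mul_sub]

theorem hat_smul (r : ℂ) (M : Matrix α α ℂ) (j : ZMod p) : F.hat (r • M) j = r • F.hat M j := by
  ext i l; simp [hat_apply, Finset.mul_sum, mul_assoc]

/-- The evaluation as an algebra map. -/
noncomputable def evHom : F.alg →ₐ[ℂ] (F.Pts → ℂ) where
  toFun := F.ev
  map_one' := by
    funext t; rcases t with (b | q)
    · cases b <;> simp [ev, val_one, dif_one]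
    · simp [ev, bval_one]
  map_mul' M N := by
    funext t; rcases t with (b | q)
    · cases b
      · exact F.dif_mul M.2 N.2
      · exact F.val_mul M.2
    · exact F.bval_mul F.three_le_card (Units.ne_zero _) M.2 N.2
  map_zero' := by
    funext t; rcases t with (b | q)
    · cases b <;> simp [ev, val, dif, blk]
    · simp [ev, bval, dif, blk, trace_hat, fdiag]
  map_add' M N := by
    funext t; rcases t with (b | q)
    · cases b
      · exact F.dif_add _ _
      · exact F.val_add _ _
    · change F.bval ((M : Matrix α α ℂ) + N) _ = _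
      rw [bval, hat_add, Matrix.trace_add, dif_add]
      simp only [ev, bval, Pi.add_apply]
      ring
  commutes' r := by
    funext t
    have h : ((algebraMap ℂ F.alg r : F.alg) : Matrix α α ℂ) = r • (1 : Matrix α α ℂ) := by
      rw [Subalgebra.coe_algebraMap, Algebra.algebraMap_eq_smul_one]
    rcases t with (b | q)
    · cases b
      · change F.dif _ = r
        rw [h, dif_smul, dif_one, mul_one]
      · change F.val _ = r
        rw [h, val_smul, val_one, mul_one]
    · change F.bval _ _ = r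
      rw [h, bval, hat_smul, Matrix.trace_smul, dif_smul, dif_one, hat_one, Matrix.trace_one,
        Fintype.card_fin, smul_eq_mul]
      push_cast; ring

theorem evHom_apply (M : F.alg) : F.evHom M = F.ev M := rfl

theorem ev_injective {M N : F.alg} (h : F.ev M = F.ev N) : M = N := by
  rw [← sub_eq_zero]
  have h0 : F.evHom (M - N) = 0 := by rw [map_sub, sub_eq_zero]; exact h
  refine Subtype.ext (F.matrix_eq_zero F.three_le_card (M - N).2 ?_ ?_ fun j hj => ?_)
  · exact congrFun h0 (Sum.inl true)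
  · exact congrFun h0 (Sum.inl false)
  · have := congrFun h0 (Sum.inr (QuotientGroup.mk (Units.mk0 j hj)))
    rw [evHom_apply, Pi.zero_apply, ev_mk, Units.val_mk0] at this
    exact this

theorem val_ne_dif : F.val (Matrix.of fun _ _ => (1 : ℂ)) ≠ F.dif (Matrix.of fun _ _ => (1 : ℂ)) := by
  have h : (Fintype.card α : ℂ) ≠ 0 := by
    have := F.three_le_card
    exact_mod_cast (by omega : Fintype.card α ≠ 0)
  simpa [val, dif, blk] using h

theorem sym_eq_top (h : ∀ C : F.Q, ∀ x y : ZMod p, x ≠ 0 → y ≠ 0 → F.f C x = F.f C y) :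
    F.sym = ⊤ := by
  refine eq_top_iff.2 fun c _ C x => ?_
  rcases eq_or_ne x 0 with rfl | hx
  · rw [mul_zero]
  · exact h C _ _ (mul_ne_zero c.ne_zero hx) hx

theorem bval_orb (C : F.Q) (j : ZMod p) :
    F.bval (F.orb C) j = ∑ x, (F.f C x : ℂ) * ψ p (j * x) - (F.aval C : ℂ) := by
  rw [bval, trace_hat, dif_orb]
  simp only [fdiag_orb]

theorem not_all_eq_const (hs : F.sym ≠ ⊤) {u : ZMod p} (hu : u ≠ 0) :
    ¬ (∀ C : F.Q, ∃ r : ℚ, ∑ x, (F.f C x : ℂ) * ψ p (u * x) = (r : ℂ)) := by
  intro h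
  refine hs (F.sym_eq_top fun C x y hx hy => ?_)
  obtain ⟨r, hr⟩ := h C
  have key : ∑ x, (((F.f C x : ℚ) - if x = 0 then r else 0 : ℚ) : ℂ) * ψ p (u * x) = 0 := by
    simp only [Rat.cast_sub, Rat.cast_natCast, sub_mul, Finset.sum_sub_distrib, hr]
    rw [Finset.sum_eq_single (0 : ZMod p) (fun b _ hb => by simp [hb]) (by simp)]
    simp
  have h1 := eq_of_sum_mul_ψ_eq_zero p _ hu key x
  have h2 := eq_of_sum_mul_ψ_eq_zero p _ hu key y
  rw [if_neg hx] at h1
  rw [if_neg hy] at h2
  have h3 : ((F.f C x : ℕ) : ℚ) = (F.f C y : ℕ) := by linarith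
  exact_mod_cast h3

theorem ev_surjective (hs : F.sym ≠ ⊤) : Function.Surjective F.evHom := by
  rw [← AlgHom.range_eq_top]
  refine subalgebra_eq_top _ fun s t hst => ?_
  by_contra hcon
  push Not at hcon
  have hM : ∀ M : F.alg, F.ev M s = F.ev M t := fun M => hcon _ ⟨M, rfl⟩
  have horb := fun C => hM ⟨F.orb C, F.inv_orb C⟩
  rcases s with (b | q) <;> rcases t with (b' | q')
  · have := hM ⟨Matrix.of fun _ _ => (1 : ℂ), fun _ _ _ _ => rfl⟩
    cases b <;> cases b' <;> first | exact hst rfl | exact F.val_ne_dif this |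
      exact F.val_ne_dif this.symm
  · obtain ⟨u, rfl⟩ := QuotientGroup.mk_surjective q'
    refine F.not_all_eq_const hs u.ne_zero fun C => ?_
    have h := horb C
    rw [ev_mk, bval_orb] at h
    cases b
    · refine ⟨2 * F.aval C, ?_⟩
      change F.dif (F.orb C) = _ at h
      rw [dif_orb] at h
      push_cast
      linear_combination -h
    · refine ⟨F.kval C + F.aval C, ?_⟩
      change F.val (F.orb C) = _ at h
      rw [val_orb] at h
      push_cast
      linear_combination -h
  · obtain ⟨u, rfl⟩ := QuotientGroup.mk_surjective q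
    refine F.not_all_eq_const hs u.ne_zero fun C => ?_
    have h := (horb C).symm
    rw [ev_mk, bval_orb] at h
    cases b'
    · refine ⟨2 * F.aval C, ?_⟩
      change F.dif (F.orb C) = _ at h
      rw [dif_orb] at h
      push_cast
      linear_combination -h
    · refine ⟨F.kval C + F.aval C, ?_⟩
      change F.val (F.orb C) = _ at h
      rw [val_orb] at h
      push_cast
      linear_combination -h
  · obtain ⟨u, rfl⟩ := QuotientGroup.mk_surjective q
    obtain ⟨v, rfl⟩ := QuotientGroup.mk_surjective q'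
    refine hst (congrArg Sum.inr (QuotientGroup.eq.2 fun C x => ?_))
    have h := horb C
    rw [ev_mk, ev_mk, bval_orb, bval_orb, sub_left_inj] at h
    have e : ∀ w : (ZMod p)ˣ, ∑ x, (F.f C x : ℂ) * ψ p ((w : ZMod p) * x)
        = ∑ x, (((F.f C ((w⁻¹ : (ZMod p)ˣ) * x) : ℕ) : ℚ) : ℂ) * ψ p (1 * x) := fun w => by
      refine Fintype.sum_equiv (Units.mulLeft w) _ _ fun x => ?_
      rw [Units.mulLeft_apply, ← mul_assoc, Units.inv_mul, one_mul, one_mul, Rat.cast_natCast]
    rw [e, e] at h
    have key : ∑ x, (((F.f C ((u⁻¹ : (ZMod p)ˣ) * x) : ℕ) : ℚ) -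
        ((F.f C ((v⁻¹ : (ZMod p)ˣ) * x) : ℕ) : ℚ) : ℚ) * ψ p (1 * x) = 0 := by
      rw [← sub_eq_zero, ← Finset.sum_sub_distrib] at h
      rw [← h]
      refine Finset.sum_congr rfl fun x _ => ?_
      push_cast; ring
    have h1 := eq_of_sum_mul_ψ_eq_zero p _ one_ne_zero key ((v : ZMod p) * x)
    rw [mul_zero, mul_zero, sub_self, sub_eq_zero] at h1
    have h2 : F.f C ((u⁻¹ : (ZMod p)ˣ) * ((v : ZMod p) * x))
        = F.f C ((v⁻¹ : (ZMod p)ˣ) * ((v : ZMod p) * x)) := by exact_mod_cast h1
    rw [Units.val_mul, mul_assoc, h2, ← mul_assoc, Units.inv_mul, one_mul]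

theorem card_Q_ge (hs : F.sym ≠ ⊤) : 1 + F.sym.index ≤ #(univ.erase F.q0) := by
  let L : (F.Q → ℂ) →ₗ[ℂ] (F.Pts → ℂ) :=
    F.evHom.toLinearMap.comp
      ({ toFun := fun φ => (⟨F.mat φ, F.inv_mat φ⟩ : F.alg)
         map_add' := fun φ χ => Subtype.ext (by ext; simp [mat_apply])
         map_smul' := fun r φ => Subtype.ext (by ext; simp [mat_apply]) } :
        (F.Q → ℂ) →ₗ[ℂ] F.alg)
  have hL : Function.Surjective L := by
    intro v
    obtain ⟨M, hM⟩ := F.ev_surjective hs v
    obtain ⟨φ, hφ⟩ := F.exists_mat M.2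
    refine ⟨φ, ?_⟩
    rw [← hM]
    exact congrArg F.evHom (Subtype.ext hφ)
  have h := LinearMap.finrank_le_finrank_of_surjective hL
  rw [Module.finrank_fintype_fun_eq_card, Module.finrank_fintype_fun_eq_card] at h
  have hP : Fintype.card F.Pts = 2 + F.sym.index := by
    rw [← Nat.card_eq_fintype_card, Nat.card_sum, Nat.card_eq_fintype_card (α := Bool),
      Fintype.card_bool]
    rfl
  rw [hP, ← Finset.card_univ, ← Finset.card_erase_add_one (Finset.mem_univ F.q0)] at h
  omega

/-- The character of an invariant matrix. -/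
noncomputable def chr (M : Matrix α α ℂ) (g : F.G) : ℂ := ∑ x, M (g • x) x

theorem chr_shift {M : Matrix α α ℂ} (hM : F.Inv M) (n : ℕ) :
    F.chr M ((⟨F.σ, F.σ_mem⟩ : F.G) ^ n) = p * F.fdiag M (n : ZMod p) := by
  rw [chr, F.sum_pt, Fin.sum_univ_two, fdiag, mul_add]
  congr 1 <;>
  · rw [Finset.sum_congr rfl (fun x _ => ?_), Finset.sum_const, Finset.card_univ, ZMod.card,
      nsmul_eq_mul]
    change M ((F.σ ^ n) _) _ = _
    rw [F.σ_pow_pt, F.inv_shift' hM, add_sub_cancel_left]

/-- Orthogonality. -/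
theorem sum_chr [Fintype F.G] {E E' : Matrix α α ℂ}
    (z : α → α → ℂ) (hstar : E'.conjTranspose = E')
    (hc : ∀ x y, ∀ Z, F.Inv Z → (Z = Matrix.of fun b a => ∑ g : F.G,
      if g • x = a ∧ g • y = b then (1 : ℂ) else 0) → E' * Z * E = z x y • E) :
    ∑ g : F.G, F.chr E g * conj (F.chr E' g) = ∑ x, ∑ y, z x y * E y x := by
  have e1 : ∀ g : F.G, F.chr E g * conj (F.chr E' g)
      = ∑ x, ∑ y, E (g • x) x * E' y (g • y) := by
    intro g
    rw [chr, chr, map_sum, Finset.sum_mul_sum]
    refine Finset.sum_congr rfl fun x _ => Finset.sum_congr rfl fun y _ => ?_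
    congr 1
    have h := congrFun (congrFun hstar y) (g • y)
    rw [Matrix.conjTranspose_apply, ← starRingEnd_apply] at h
    exact h
  simp only [e1]
  rw [Finset.sum_comm]
  refine Finset.sum_congr rfl fun x _ => ?_
  rw [Finset.sum_comm]
  refine Finset.sum_congr rfl fun y _ => ?_
  set Z : Matrix α α ℂ := Matrix.of fun b a => ∑ g : F.G,
    if g • x = a ∧ g • y = b then (1 : ℂ) else 0 with hZ
  have hZi : F.Inv Z := by
    intro h hh b a
    simp only [hZ, Matrix.of_apply]
    refine Fintype.sum_equiv (Equiv.mulLeft (⟨h, hh⟩ : F.G)⁻¹) _ _ fun g => ?_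
    simp only [Equiv.coe_mulLeft, mul_smul, inv_smul_eq_iff]
    rfl
  have h := congrFun (congrFun (hc x y Z hZi rfl) y) x
  rw [Matrix.smul_apply, smul_eq_mul] at h
  rw [← h, Matrix.mul_apply]
  simp only [Matrix.mul_apply, hZ, Matrix.of_apply, Finset.mul_sum, Finset.sum_mul]
  symm
  rw [Finset.sum_comm]
  simp only [Finset.sum_comm (s := (univ : Finset α)) (t := (univ : Finset F.G))]
  refine Finset.sum_congr rfl fun g _ => ?_
  rw [Finset.sum_eq_single (g • y) (fun b _ hb => ?_) (by simp),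
    Finset.sum_eq_single (g • x) (fun a _ ha => ?_) (by simp)]
  · simp [mul_comm]
  · simp [Ne.symm ha]
  · refine Finset.sum_eq_zero fun a _ => ?_
    simp [Ne.symm hb]

theorem mult_σ_pow_conj {h : F.G} {a b : ZMod p} (ha : a ≠ 0) (hb : b ≠ 0)
    (hc : ∀ x, (h : Perm α) ((F.σ ^ a.val) x) = (F.σ ^ b.val) ((h : Perm α) x)) : h ∈ F.nrm := by
  refine ⟨Units.mk0 b hb * (Units.mk0 a ha)⁻¹, fun i x => ?_⟩
  obtain ⟨⟨i', x'⟩, he⟩ := F.pt.surjective ((h : Perm α) (F.pt (i, x)))
  refine ⟨i', x', he.symm, fun y => ?_⟩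
  have hn : ∀ n : ℕ, (h : Perm α) (F.pt (i, x + n * a)) = F.pt (i', x' + n * b) := by
    intro n
    induction n with
    | zero => simp [he]
    | succ n ih =>
      have := hc (F.pt (i, x + n * a))
      rw [F.σ_pow_pt, ZMod.natCast_zmod_val, ih, F.σ_pow_pt, ZMod.natCast_zmod_val] at this
      push_cast
      rw [add_mul, one_mul, add_mul, one_mul, ← add_assoc, ← add_assoc]
      exact this
  have := hn (y / a).val
  rw [ZMod.natCast_zmod_val, div_mul_cancel₀ y ha] at this
  rw [this, Units.val_mul, Units.val_inv_eq_inv_val, Units.val_mk0, Units.val_mk0]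
  congr 2
  field_simp

theorem chr_conj {M : Matrix α α ℂ} (hM : F.Inv M) (h g : F.G) :
    F.chr M (h * g * h⁻¹) = F.chr M g := by
  rw [chr, chr, ← Equiv.sum_comp (h : Perm α)]
  refine Finset.sum_congr rfl fun x _ => ?_
  change M ((h : Perm α) ((g : Perm α) ((h : Perm α)⁻¹ ((h : Perm α) x)))) _ = _
  simp only [Perm.inv_def, Equiv.symm_apply_apply]
  exact hM _ h.2 _ _

set_option maxHeartbeats 1000000 in
/-- **The norm inequality.** -/
theorem card_sym_mul_le (hs : F.sym ≠ ⊤) : p * Nat.card F.sym ≤ Nat.card F.nrm := by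
  classical
  haveI : Fintype F.G := Fintype.ofFinite _
  obtain ⟨c, hcs⟩ : ∃ c, c ∉ F.sym := by
    by_contra h; push Not at h; exact hs (eq_top_iff.2 fun c _ => h c)
  set t1 : F.Pts := Sum.inr (QuotientGroup.mk 1)
  set t2 : F.Pts := Sum.inr (QuotientGroup.mk c)
  have h12 : t1 ≠ t2 := fun h => hcs (by
    have := QuotientGroup.eq.1 (Sum.inr_injective h); simpa using this)
  obtain ⟨E1, hE1⟩ := F.ev_surjective hs (Pi.single t1 1)
  obtain ⟨E2, hE2⟩ := F.ev_surjective hs (Pi.single t2 1)
  set e := Nat.card F.sym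
  have he0 : 0 < e := Nat.card_pos
  -- traces at the characters
  have hT : ∀ (E : F.alg) (u : (ZMod p)ˣ),
      F.evHom E = Pi.single (Sum.inr (QuotientGroup.mk u)) 1 →
      ∀ j : ZMod p, (F.hat (E : Matrix α α ℂ) j).trace
        = if j ∈ univ.filter (fun j : ZMod p => ∃ c ∈ F.sym, (c : ZMod p) * u = j)
          then 1 else 0 := by
    intro E u hE j
    have h0 := congrFun hE (Sum.inl true)
    have h1 := congrFun hE (Sum.inl false)
    rw [Pi.single_eq_of_ne (by simp)] at h0 h1
    change F.val (E : Matrix α α ℂ) = 0 at h0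
    change F.dif (E : Matrix α α ℂ) = 0 at h1
    rcases eq_or_ne j 0 with rfl | hj
    · rw [F.trace_hat_zero E.2, h0, h1, if_neg (by simp), add_zero]
    · have h2 := congrFun hE (Sum.inr (QuotientGroup.mk (Units.mk0 j hj)))
      rw [evHom_apply, ev_mk, Units.val_mk0, Pi.single_apply] at h2
      rw [F.trace_hat_eq j, h1, add_zero, h2]
      refine if_congr ?_ rfl rfl
      simp only [Sum.inr.injEq, Finset.mem_filter, Finset.mem_univ, true_and]
      rw [eq_comm, QuotientGroup.eq]
      constructor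
      · intro h
        exact ⟨u⁻¹ * Units.mk0 j hj, h, by
          rw [Units.val_mul, mul_comm ((u⁻¹ : (ZMod p)ˣ) : ZMod p), mul_assoc, Units.inv_mul,
            mul_one, Units.val_mk0]⟩
      · rintro ⟨c', hc', hcj⟩
        have : u⁻¹ * Units.mk0 j hj = c' := by
          rw [inv_mul_eq_iff_eq_mul, mul_comm u c']; exact Units.ext hcj.symm
        rwa [this]
  have hS : ∀ u : (ZMod p)ˣ,
      (univ.filter (fun j : ZMod p => ∃ c ∈ F.sym, (c : ZMod p) * u = j)).card = e := by
    intro u
    change _ = Nat.card F.sym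
    rw [Nat.card_eq_fintype_card, ← Finset.card_univ]
    symm
    refine Finset.card_bij (fun c _ => ((c : (ZMod p)ˣ) : ZMod p) * u) (fun c _ => by
        simp only [Finset.mem_filter, Finset.mem_univ, true_and]; exact ⟨c, c.2, rfl⟩)
      (fun a _ b _ h => Subtype.ext (Units.ext (mul_right_cancel₀ u.ne_zero h))) fun j hj => ?_
    obtain ⟨c', hc', rfl⟩ := (Finset.mem_filter.1 hj).2
    exact ⟨⟨c', hc'⟩, Finset.mem_univ _, rfl⟩
  have htr : ∀ (E : F.alg) (u : (ZMod p)ˣ),
      F.evHom E = Pi.single (Sum.inr (QuotientGroup.mk u)) 1 →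
      Matrix.trace (E : Matrix α α ℂ) = e := by
    intro E u hE
    have h := F.sum_trace_hat_mul (M := (E : Matrix α α ℂ)) 0
    simp only [mul_zero, neg_zero, AddChar.map_zero_eq_one, mul_one, hT E u hE,
      Finset.sum_ite_mem, Finset.univ_inter, Finset.sum_const, hS, nsmul_eq_mul] at h
    rw [h]
    have := F.chr_shift E.2 0
    rw [pow_zero, Nat.cast_zero] at this
    rw [← this, chr]
    simp [Matrix.trace]
  have hsq : ∀ (E : F.alg) (t : F.Pts), F.evHom E = Pi.single t 1 → E * E = E := by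
    intro E t hE
    refine F.ev_injective ?_
    change F.evHom (E * E) = F.evHom E
    rw [map_mul, hE, ← Pi.single_mul, one_mul]
  have hherm : ∀ (E : F.alg) (t : F.Pts), F.evHom E = Pi.single t 1 →
      (E : Matrix α α ℂ).conjTranspose = E := by
    intro E t hE
    refine congrArg Subtype.val (F.ev_injective (M := ⟨_, F.star_mem E.2⟩) (N := E) (funext fun s => ?_))
    have h : conj (F.ev E s) = F.ev E s := by
      change conj (F.evHom E s) = F.evHom E s
      rw [hE, Pi.single_apply]; split_ifs <;> simp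
    rw [← h]
    rcases s with (b | q)
    · cases b
      · exact F.dif_conjTranspose E.2
      · change F.val _ = conj (F.val (E : Matrix α α ℂ))
        have h2 := F.row_sum E.2 F.o
        rw [← h2, map_sum]
        exact Finset.sum_congr rfl fun x _ => Matrix.conjTranspose_apply _ _ _
    · exact F.bval_conjTranspose E.2 _
  -- the three sums
  have hsum : ∀ (E E' : F.alg) (t t' : F.Pts) (u : (ZMod p)ˣ),
      t = Sum.inr (QuotientGroup.mk u) →
      F.evHom E = Pi.single t 1 → F.evHom E' = Pi.single t' 1 →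
      ∑ g : F.G, F.chr E g * conj (F.chr E' g)
        = if t = t' then (Nat.card F.G : ℂ) else 0 := by
    intro E E' t t' u htu hE hE'
    have hmul : ∀ (Z : Matrix α α ℂ) (hZ : F.Inv Z),
        (E' : Matrix α α ℂ) * Z * E
          = (if t = t' then F.evHom ⟨Z, hZ⟩ t else 0) • (E : Matrix α α ℂ) := by
      intro Z hZ
      have h : E' * ⟨Z, hZ⟩ * E = (if t = t' then F.evHom ⟨Z, hZ⟩ t else 0) • E := by
        refine F.ev_injective ?_
        change F.evHom _ = F.evHom _
        rw [map_mul, map_mul, map_smul, hE, hE']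
        funext s
        simp only [Pi.mul_apply, Pi.smul_apply, Pi.single_apply, smul_eq_mul]
        split_ifs <;> simp_all
      exact congrArg Subtype.val h
    let Z : α → α → F.alg := fun x y => ⟨Matrix.of fun b a => ∑ g : F.G,
      if g • x = a ∧ g • y = b then (1 : ℂ) else 0, by
        intro h hh b a
        simp only [Matrix.of_apply]
        refine Fintype.sum_equiv (Equiv.mulLeft (⟨h, hh⟩ : F.G)⁻¹) _ _ fun g => ?_
        simp only [Equiv.coe_mulLeft, mul_smul, inv_smul_eq_iff]
        rfl⟩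
    rw [F.sum_chr (fun x y => if t = t' then F.evHom (Z x y) t else 0) (hherm E' t' hE')
      (fun x y W hW hWe => by subst hWe; exact hmul _ hW)]
    by_cases htt : t = t'
    · simp only [if_pos htt]
      -- evaluate via the trace
      have hz : ∀ x y, F.evHom (Z x y) t * e = (Nat.card F.G : ℂ) * (E : Matrix α α ℂ) x y := by
        intro x y
        have hEE : E * Z x y = F.evHom (Z x y) t • E := by
          refine F.ev_injective ?_
          change F.evHom _ = F.evHom _
          rw [map_mul, map_smul, hE]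
          funext s
          simp only [Pi.mul_apply, Pi.smul_apply, Pi.single_apply, smul_eq_mul]
          split_ifs <;> simp_all
        have h := congrArg (fun M : F.alg => Matrix.trace (M : Matrix α α ℂ)) hEE
        simp only [Subalgebra.coe_mul, Subalgebra.coe_smul, Matrix.trace_smul, smul_eq_mul] at h
        rw [htr E u (htu ▸ hE)] at h
        rw [← h, Matrix.trace]
        simp only [Matrix.diag_apply, Matrix.mul_apply, Z, Matrix.of_apply, Finset.mul_sum]
        simp only [Finset.sum_comm (s := (univ : Finset α)) (t := (univ : Finset F.G))]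
        rw [Nat.card_eq_fintype_card]
        have : ∀ g : F.G, ∑ a : α, ∑ b : α,
            (E : Matrix α α ℂ) a b * (if g • x = a ∧ g • y = b then 1 else 0)
              = (E : Matrix α α ℂ) x y := by
          intro g
          rw [Finset.sum_eq_single (g • x) (fun a _ ha => by simp [Ne.symm ha]) (by simp),
            Finset.sum_eq_single (g • y) (fun b _ hb => by simp [Ne.symm hb]) (by simp)]
          simp only [and_self, if_true, mul_one]
          exact E.2 _ g.2 x y
        simp only [this, Finset.sum_const, Finset.card_univ, nsmul_eq_mul]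
      have he : (e : ℂ) ≠ 0 := by exact_mod_cast he0.ne'
      refine mul_right_cancel₀ he ?_
      have hEEtr : ∑ x, ∑ y, (E : Matrix α α ℂ) x y * (E : Matrix α α ℂ) y x = e := by
        rw [← htr E u (htu ▸ hE)]
        conv_rhs => rw [← hsq E t hE]
        simp [Matrix.trace, Matrix.mul_apply]
      have hterm : ∀ x y, F.evHom (Z x y) t * (E : Matrix α α ℂ) y x * e
          = (Nat.card F.G : ℂ) * ((E : Matrix α α ℂ) x y * (E : Matrix α α ℂ) y x) := fun x y => by
        rw [mul_right_comm, hz, mul_assoc]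
      simp only [Finset.sum_mul, hterm]
      simp only [← Finset.mul_sum, hEEtr]
    · simp [if_neg htt]
  set D : F.G → ℂ := fun g => F.chr E1 g - F.chr E2 g with hD
  have htot : ∑ g, D g * conj (D g) = 2 * (Nat.card F.G : ℂ) := by
    simp only [hD, map_sub, mul_sub, sub_mul, Finset.sum_sub_distrib]
    rw [hsum E1 E1 t1 t1 1 rfl hE1 hE1, hsum E2 E1 t2 t1 c rfl hE2 hE1,
      hsum E1 E2 t1 t2 1 rfl hE1 hE2, hsum E2 E2 t2 t2 c rfl hE2 hE2, if_pos rfl, if_pos rfl,
      if_neg (Ne.symm h12), if_neg h12]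
    ring
  set s : F.G := ⟨F.σ, F.σ_mem⟩
  have hpart : ∑ a : ZMod p, D (s ^ a.val) * conj (D (s ^ a.val)) = p * (2 * e) := by
    set w : ZMod p → ℂ := fun j => (F.hat (E1 : Matrix α α ℂ) j).trace
      - (F.hat (E2 : Matrix α α ℂ) j).trace with hw
    have h1 : ∀ a : ZMod p, D (s ^ a.val) = ∑ j, w j * ψ p (-a * j) := by
      intro a
      rw [hD]
      simp only
      rw [F.chr_shift E1.2, F.chr_shift E2.2, ZMod.natCast_zmod_val, ← F.sum_trace_hat_mul,
        ← F.sum_trace_hat_mul, ← Finset.sum_sub_distrib]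
      refine Finset.sum_congr rfl fun j _ => ?_
      rw [hw, neg_mul, mul_comm a j]; ring
    rw [← Equiv.sum_comp (Equiv.neg (ZMod p))]
    simp only [h1, Equiv.neg_apply, neg_neg]
    rw [parseval]
    congr 1
    have hw1 : ∀ j, w j * conj (w j) =
        (if j ∈ univ.filter (fun j : ZMod p => ∃ c' ∈ F.sym, (c' : ZMod p) * (1 : (ZMod p)ˣ) = j)
          then 1 else 0) +
        (if j ∈ univ.filter (fun j : ZMod p => ∃ c' ∈ F.sym, (c' : ZMod p) * c = j)
          then 1 else 0) := by
      intro j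
      rw [hw]
      simp only [hT E1 1 hE1, hT E2 c hE2]
      split_ifs with hj1 hj2 <;> simp
      obtain ⟨c1, hc1, e1⟩ := (Finset.mem_filter.1 hj1).2
      obtain ⟨c2, hc2, e2⟩ := (Finset.mem_filter.1 hj2).2
      refine absurd ?_ hcs
      have : c = c2⁻¹ * c1 := by
        rw [eq_inv_mul_iff_mul_eq]
        refine Units.ext ?_
        rw [Units.val_mul, e2, ← e1, Units.val_one, mul_one]
      rw [this]
      exact F.sym.mul_mem (F.sym.inv_mem hc2) hc1
    simp only [hw1, Finset.sum_add_distrib, Finset.sum_ite_mem, Finset.univ_inter, Finset.sum_const,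
      hS, nsmul_eq_mul, mul_one]
    ring
  -- move to the real numbers
  set R : F.G → ℝ := fun g => Complex.normSq (D g) with hR
  have hRD : ∀ g, D g * conj (D g) = (R g : ℂ) := fun g => Complex.mul_conj _
  simp only [hRD, ← Complex.ofReal_sum] at htot hpart
  have htot' : ∑ g, R g = 2 * (Nat.card F.G : ℝ) := by exact_mod_cast htot
  have hpart' : ∑ a : ZMod p, R (s ^ a.val) = p * (2 * e) := by exact_mod_cast hpart
  have hR1 : R (s ^ (0 : ZMod p).val) = 0 := by
    rw [ZMod.val_zero, hR]
    simp only [hD]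
    have e1 := F.chr_shift E1.2 0
    have e2 := F.chr_shift E2.2 0
    have k1 := F.sum_trace_hat_mul (M := (E1 : Matrix α α ℂ)) 0
    have k2 := F.sum_trace_hat_mul (M := (E2 : Matrix α α ℂ)) 0
    simp only [mul_zero, neg_zero, AddChar.map_zero_eq_one, mul_one, hT E1 1 hE1, hT E2 c hE2,
      Finset.sum_ite_mem, Finset.univ_inter, Finset.sum_const, hS, Nat.cast_zero] at k1 k2 e1 e2
    rw [e1, e2, ← k1, ← k2, sub_self, map_zero]
  rw [← Finset.add_sum_erase _ _ (Finset.mem_univ (0 : ZMod p)), hR1, zero_add] at hpart'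
  -- fibres of the conjugation map
  let Φ : F.G × ZMod p → F.G := fun z => z.1 * s ^ z.2.val * z.1⁻¹
  set Dom : Finset (F.G × ZMod p) := univ ×ˢ univ.erase 0 with hDom
  have hfib : ∀ g, #{z ∈ Dom | Φ z = g} ≤ Nat.card F.nrm := by
    intro g
    rcases Finset.eq_empty_or_nonempty {z ∈ Dom | Φ z = g} with h | ⟨⟨h0, a0⟩, hz⟩
    · simp [h]
    obtain ⟨hd0, hg0⟩ := Finset.mem_filter.1 hz
    have ha0 : a0 ≠ 0 := (Finset.mem_erase.1 (Finset.mem_product.1 hd0).2).1
    rw [Nat.card_eq_fintype_card, ← Finset.card_univ,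
      ← Finset.card_map (Function.Embedding.subtype (· ∈ F.nrm))]
    refine Finset.card_le_card_of_injOn (fun z => h0⁻¹ * z.1) ?_ ?_
    · rintro ⟨h, a⟩ hmem
      obtain ⟨hd, hg⟩ := Finset.mem_filter.1 (Finset.mem_coe.1 hmem)
      have ha : a ≠ 0 := (Finset.mem_erase.1 (Finset.mem_product.1 hd).2).1
      have hmem' : h0⁻¹ * h ∈ F.nrm := by
        refine F.mult_σ_pow_conj ha ha0 fun x => ?_
        have he : h0⁻¹ * h * s ^ a.val = s ^ a0.val * (h0⁻¹ * h) := by
          have h1 : h * s ^ a.val * h⁻¹ = h0 * s ^ a0.val * h0⁻¹ := hg.trans hg0.symm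
          calc h0⁻¹ * h * s ^ a.val = h0⁻¹ * (h * s ^ a.val * h⁻¹) * h := by group
            _ = h0⁻¹ * (h0 * s ^ a0.val * h0⁻¹) * h := by rw [h1]
            _ = s ^ a0.val * (h0⁻¹ * h) := by group
        exact congrArg (fun g : F.G => (g : Perm α) x) he
      exact Finset.mem_map.2 ⟨⟨_, hmem'⟩, Finset.mem_univ _, rfl⟩
    · rintro ⟨h, a⟩ hmem ⟨h', a'⟩ hmem' heq
      obtain ⟨-, hg⟩ := Finset.mem_filter.1 (Finset.mem_coe.1 hmem)
      obtain ⟨-, hg'⟩ := Finset.mem_filter.1 (Finset.mem_coe.1 hmem')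
      obtain rfl : h = h' := mul_left_cancel heq
      have h1 : s ^ a.val = s ^ a'.val := mul_left_cancel (mul_right_cancel (hg.trans hg'.symm))
      have h2 := congrArg (fun g : F.G => (g : Perm α) (F.pt (0, 0))) h1
      change (F.σ ^ a.val) _ = (F.σ ^ a'.val) _ at h2
      rw [F.σ_pow_pt, F.σ_pow_pt, ZMod.natCast_zmod_val, ZMod.natCast_zmod_val, zero_add,
        zero_add] at h2
      exact Prod.ext rfl (show a = a' from congrArg (fun q : Fin 2 × ZMod p => q.2) (F.pt.injective h2))
  have hbig : (Nat.card F.G : ℝ) * (p * (2 * e)) ≤ (Nat.card F.nrm : ℝ) * (2 * Nat.card F.G) := by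
    rw [← htot', ← hpart', Finset.mul_sum]
    have e1 : ∑ a ∈ univ.erase (0 : ZMod p), (Nat.card F.G : ℝ) * R (s ^ a.val)
        = ∑ z ∈ Dom, R (Φ z) := by
      rw [hDom, Finset.sum_product_right]
      refine Finset.sum_congr rfl fun a _ => ?_
      have : ∀ h : F.G, R (Φ (h, a)) = R (s ^ a.val) := fun h => by
        simp only [hR, hD, Φ, F.chr_conj E1.2, F.chr_conj E2.2]
      simp only [this, Finset.sum_const, Finset.card_univ, nsmul_eq_mul, Nat.card_eq_fintype_card]
    rw [e1, ← Finset.sum_fiberwise_of_maps_to (t := univ) (fun z _ => Finset.mem_univ (Φ z)),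
      Finset.mul_sum]
    refine Finset.sum_le_sum fun g _ => ?_
    rw [Finset.sum_congr rfl (fun z hz => by rw [(Finset.mem_filter.1 hz).2]), Finset.sum_const,
      nsmul_eq_mul]
    exact mul_le_mul_of_nonneg_right (by exact_mod_cast hfib g) (Complex.normSq_nonneg _)
  have hG : (0 : ℝ) < Nat.card F.G := by exact_mod_cast Nat.card_pos
  have : (p : ℝ) * e ≤ Nat.card F.nrm := by nlinarith
  exact_mod_cast this

end Frame

end Cfsg.Agent.H63.Wielandt
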