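import Mathlib
import Cfsg.Agent.H63.Wielandt.Classes

/-!
# Wielandt's theorem on primitive groups of degree `2p`: the arithmetic

Every suborbit satisfies `#{f = 1} = 2a(a+1)`; suborbits are numerous enough for one to have a
one-class diagonal, and then the norm inequality leaves only the case `e = 4`, which a triangle
count excludes.
-/

set_option autoImplicit false
set_option linter.unusedSectionVars false

namespace Cfsg.Agent.H63.Wielandt

open Finset ComplexConjugate Equiv
open scoped Pointwise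

/-- No three fourth roots of unity sum to zero in `ZMod p`, `p > 5`. -/
theorem fourth_roots_sum {p : ℕ} [Fact p.Prime] (hp : 5 < p) {x y z : ZMod p} (hx : x ^ 4 = 1)
    (hy : y ^ 4 = 1) (hz : z ^ 4 = 1) : x + y + z ≠ 0 := by
  intro h
  have small : ∀ n : ℕ, 0 < n → n ≤ 5 → (n : ZMod p) ≠ 0 := fun n hn hn5 he => by
    have := Nat.le_of_dvd hn ((ZMod.natCast_eq_zero_iff _ _).1 he); omega
  have h3 : (3 : ZMod p) ≠ 0 := by exact_mod_cast small 3 (by norm_num) (by norm_num)
  have h5 : (5 : ZMod p) ≠ 0 := by exact_mod_cast small 5 (by norm_num) (by norm_num)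
  have hz0 : z ≠ 0 := fun e => by rw [e] at hz; simp at hz
  set u := x / z with hu
  have hu4 : u ^ 4 = 1 := by rw [hu, div_pow, hx, hz, div_one]
  have huv : y / z = -1 - u := by
    rw [hu]; field_simp; linear_combination h
  have hv4 : (-1 - u) ^ 4 = 1 := by rw [← huv, div_pow, hy, hz, div_one]
  have hcub : 4 * u ^ 3 + 6 * u ^ 2 + 4 * u + 1 = 0 := by linear_combination hv4 - hu4
  have hf : (u - 1) * (u + 1) * (u ^ 2 + 1) = 0 := by linear_combination hu4
  rcases mul_eq_zero.1 hf with hf | hf
  · rcases mul_eq_zero.1 hf with hf | hf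
    · have h15 : (3 : ZMod p) * 5 = 0 := by
        linear_combination hcub - (4 * u ^ 2 + 10 * u + 14) * hf
      exact mul_ne_zero h3 h5 h15
    · have h1 : (1 : ZMod p) = 0 := by linear_combination -hcub + (4 * u ^ 2 + 2 * u + 2) * hf
      exact one_ne_zero h1
  · exact h5 (by linear_combination -hcub + (4 * u + 6) * hf)

theorem neg_one_mem_of_even {p : ℕ} [Fact p.Prime] (K : Subgroup (ZMod p)ˣ)
    (h : 2 ∣ Nat.card K) : (-1 : (ZMod p)ˣ) ∈ K := by
  obtain ⟨k, hk⟩ := exists_prime_orderOf_dvd_card' 2 h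
  have hk2 : ((k : (ZMod p)ˣ) : ZMod p) ^ 2 = 1 := by
    have := congrArg (fun g : K => ((g : (ZMod p)ˣ) : ZMod p)) (hk ▸ pow_orderOf_eq_one k)
    simpa using this
  rcases sq_eq_one_iff.1 hk2 with h1 | h1
  · have : k = 1 := Subtype.ext (Units.ext h1)
    rw [this, orderOf_one] at hk
    norm_num at hk
  · have : (k : (ZMod p)ˣ) = -1 := Units.ext (by rw [h1]; rfl)
    exact this ▸ k.2

theorem sum_cube_count {p : ℕ} [Fact p.Prime] (g : ZMod p → ℂ)
    (h : ∀ x y z, g x ≠ 0 → g y ≠ 0 → g z ≠ 0 → x + y + z ≠ 0) :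
    ∑ j : ZMod p, (∑ x, g x * ψ p (j * x)) ^ 3 = 0 := by
  simp only [pow_succ, pow_zero, one_mul, Finset.sum_mul, Finset.mul_sum]
  rw [Finset.sum_comm]
  refine Finset.sum_eq_zero fun z _ => ?_
  rw [Finset.sum_comm]
  refine Finset.sum_eq_zero fun y _ => ?_
  rw [Finset.sum_comm]
  refine Finset.sum_eq_zero fun x _ => ?_
  have e : ∀ j : ZMod p, g x * ψ p (j * x) * (g y * ψ p (j * y)) * (g z * ψ p (j * z))
      = g x * g y * g z * ψ p (j * (x + y + z)) := fun j => by
    rw [mul_add, mul_add, AddChar.map_add_eq_mul, AddChar.map_add_eq_mul]; ring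
  simp only [e, ← Finset.mul_sum, sum_ψ_mul]
  split_ifs with h0
  · by_contra hne
    exact h x y z (fun e => hne (by simp [e])) (fun e => hne (by simp [e]))
      (fun e => hne (by simp [e])) h0
  · simp

variable {α : Type*} [Fintype α] [DecidableEq α] {p : ℕ} [Fact p.Prime] (F : Frame α p)

namespace Frame

theorem index_mul_sym : F.sym.index * Nat.card F.sym = p - 1 := by
  rw [mul_comm, Subgroup.card_mul_index, Nat.card_eq_fintype_card, ZMod.card_units]

/-- `#{f = 1}` and `Σ f` are multiples of the number of symmetries. -/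
theorem dvd_counts {C : F.Q} (hC : C ≠ F.q0) :
    ∃ m' w : ℕ, F.m C = Nat.card F.sym * m' ∧ 2 * F.r C 0 0 = Nat.card F.sym * (m' + 2 * w) := by
  have hd : ∀ v : ℕ, 0 < v → Nat.card F.sym ∣ #{x : ZMod p | F.f C x = v} := by
    intro v hv
    refine card_dvd_of_invariant F.sym _ ?_ ?_
    · simp only [Finset.mem_filter, Finset.mem_univ, true_and, F.f_zero hC]; omega
    · intro c hc x hx
      simp only [Finset.mem_filter, Finset.mem_univ, true_and] at hx ⊢
      rw [hc C x, hx]
  obtain ⟨m', hm'⟩ := hd 1 one_pos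
  obtain ⟨w, hw⟩ := hd 2 two_pos
  refine ⟨m', w, hm', ?_⟩
  rw [← F.sum_f, mul_add, mul_left_comm, ← hm', ← hw, Finset.card_filter, Finset.card_filter,
    Finset.mul_sum, ← Finset.sum_add_distrib]
  refine Finset.sum_congr rfl fun x _ => ?_
  have := F.f_le_two C x
  interval_cases h : F.f C x <;> simp

/-- A suborbit with `a = 1` and `k = 3` is impossible. -/
theorem no_three {C : F.Q} (hC : C ≠ F.q0) (hp5 : 5 < p) (he : Nat.card F.sym = 4)
    (ha : F.aval C = 1) (h00 : F.r C 0 0 = 2) (hm : F.m C = 4) : False := by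
  classical
  have hp3 := F.three_le_card
  set A := F.orb C with hA
  have hA' := F.inv_orb C
  have hA2 : F.Inv (A * A) := F.alg.mul_mem hA' hA'
  have hA3 : F.Inv (A * A * A) := F.alg.mul_mem hA2 hA'
  have hk : F.kval C = 3 := by
    have := F.kval_eq C
    have h := ha
    rw [aval, h00] at h
    omega
  set S : Finset (ZMod p) := univ.filter fun x => F.f C x = 1 with hS
  have hScard : S.card = 4 := hm
  have hf : ∀ x, F.f C x = if x ∈ S then 1 else 0 := by
    intro x
    have hsum := F.sum_f C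
    rw [h00, ← Finset.sum_add_sum_compl S (F.f C),
      Finset.sum_congr rfl (fun x hx => (Finset.mem_filter.1 hx).2), Finset.sum_const, smul_eq_mul,
      mul_one, hScard] at hsum
    split_ifs with hx
    · exact (Finset.mem_filter.1 hx).2
    · exact Finset.sum_eq_zero_iff.1 (by omega) x (Finset.mem_compl.2 hx)
  have hS0 : (0 : ZMod p) ∉ S := by simp [hS, F.f_zero hC]
  obtain ⟨s0, hs0⟩ := Finset.card_pos.1 (by omega : 0 < S.card)
  have hs00 : s0 ≠ 0 := fun e => hS0 (e ▸ hs0)
  -- `S` is the coset of `s0`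
  have hcos : ∀ x ∈ S, (x / s0) ^ 4 = 1 := by
    intro x hx
    have hsub : (univ : Finset F.sym).image (fun c : F.sym => ((c : (ZMod p)ˣ) : ZMod p) * s0) = S := by
      refine Finset.eq_of_subset_of_card_le ?_ ?_
      · intro y hy
        obtain ⟨c, -, rfl⟩ := Finset.mem_image.1 hy
        simp only [hS, Finset.mem_filter, Finset.mem_univ, true_and]
        rw [c.2 C s0]; exact (Finset.mem_filter.1 hs0).2
      · rw [Finset.card_image_of_injective _ (fun a b h =>
          Subtype.ext (Units.ext (mul_right_cancel₀ hs00 h))), Finset.card_univ,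
          ← Nat.card_eq_fintype_card, he, hScard]
    rw [← hsub] at hx
    obtain ⟨c, -, rfl⟩ := Finset.mem_image.1 hx
    rw [mul_div_assoc, div_self hs00, mul_one, ← Units.val_pow_eq_pow_val, ← Subgroup.coe_pow, ← he,
      pow_card_eq_one', Subgroup.coe_one, Units.val_one]
  have hneg : ∀ x, F.f C (-x) = F.f C x := fun x => by
    have := neg_one_mem_of_even F.sym (by rw [he]; norm_num) C x
    simpa using this
  set T : ZMod p → ℂ := fun j => ∑ x, (F.f C x : ℂ) * ψ p (j * x) with hT
  have hTb : ∀ j, F.bval A j = T j - 1 := fun j => by rw [hA, bval_orb, ha]; simp [hT]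
  have hS3 : ∑ j, T j ^ 3 = 0 := by
    refine sum_cube_count _ fun x y z hx hy hz hsum => ?_
    have mem : ∀ x, ((F.f C x : ℕ) : ℂ) ≠ 0 → x ∈ S := fun x hx => by
      by_contra hxS; rw [hf, if_neg hxS] at hx; simp at hx
    refine fourth_roots_sum hp5 (hcos x (mem x hx)) (hcos y (mem y hy)) (hcos z (mem z hz)) ?_
    rw [← add_div, ← add_div, hsum, zero_div]
  have hS2 : ∑ j, T j ^ 2 = 4 * p := by
    have hreal : ∀ j, conj (T j) = T j := by
      intro j
      simp only [hT, map_sum, (starRingEnd ℂ).map_mul, conj_ψ, map_natCast]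
      refine Fintype.sum_equiv (Equiv.neg (ZMod p)) _ _ fun x => ?_
      rw [Equiv.neg_apply, hneg, mul_neg]
    have h := parseval (fun x => (F.f C x : ℂ))
    have h' : ∑ j, T j ^ 2 = ∑ j, T j * conj (T j) :=
      Finset.sum_congr rfl fun j _ => by rw [hreal, sq]
    rw [h', hT]
    rw [h, mul_comm (4 : ℂ)]
    congr 1
    simp only [map_natCast, ← Nat.cast_mul, ← Nat.cast_sum]
    norm_cast
    rw [← hScard, hS, Finset.card_filter]
    refine Finset.sum_congr rfl fun x _ => ?_
    have hle : F.f C x ≤ 1 := by rw [hf]; split_ifs <;> omega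
    interval_cases h : F.f C x <;> simp
  have hS1 : ∑ j, T j = 0 := by
    simp only [hT]
    rw [Finset.sum_comm]
    simp only [← Finset.mul_sum, sum_ψ_mul]
    refine Finset.sum_eq_zero fun x _ => ?_
    rcases eq_or_ne x 0 with rfl | hx
    · simp [F.f_zero hC]
    · simp [hx]
  have hT0 : T 0 = 4 := by
    simp only [hT, zero_mul, AddChar.map_zero_eq_one, mul_one]
    rw [← Nat.cast_sum, F.sum_f, h00]; norm_num
  have h := F.sum_trace_hat_mul (M := A * A * A) 0
  simp only [mul_zero, neg_zero, AddChar.map_zero_eq_one, mul_one] at h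
  rw [← Finset.add_sum_erase _ _ (Finset.mem_univ (0 : ZMod p)), F.trace_hat_zero hA3,
    F.val_mul hA2, F.val_mul hA', F.dif_mul hA2 hA', F.dif_mul hA' hA', hA, F.val_orb,
    F.dif_orb, hk, ha] at h
  have hrest : ∀ j ∈ univ.erase (0 : ZMod p),
      (F.hat (F.orb C * F.orb C * F.orb C) j).trace = 1 + (T j - 1) ^ 3 := by
    intro j hj
    have hj0 := (Finset.mem_erase.1 hj).1
    rw [F.trace_mul_hat hp3 hj0 hA2 hA', F.dif_mul hA' hA', F.bval_mul hp3 hj0 hA' hA', F.dif_orb,
      ha, ← hA, hTb]
    push_cast; ring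
  rw [Finset.sum_congr rfl hrest] at h
  have hexp : ∑ j ∈ univ.erase (0 : ZMod p), (1 + (T j - 1) ^ 3) = -12 * (p : ℂ) - 28 := by
    have hfull : ∑ j : ZMod p, (1 + (T j - 1) ^ 3) = -12 * (p : ℂ) := by
      have e : ∀ j, 1 + (T j - 1) ^ 3 = T j ^ 3 - 3 * T j ^ 2 + 3 * T j := fun j => by ring
      simp only [e, Finset.sum_add_distrib, Finset.sum_sub_distrib, ← Finset.mul_sum, hS3, hS2, hS1]
      ring
    rw [← Finset.add_sum_erase _ _ (Finset.mem_univ (0 : ZMod p)), hT0] at hfull
    linear_combination hfull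
  rw [hexp] at h
  push_cast at h
  have hnn : ∃ r : ℕ, F.fdiag (F.orb C * F.orb C * F.orb C) 0 = (r : ℂ) := by
    let N : Matrix α α ℕ := Matrix.of fun x y => if F.cl x y = C then 1 else 0
    have hN : F.orb C = N.map (Nat.castRingHom ℂ) := by
      ext x y; simp [N, orb_apply, apply_ite (Nat.cast (R := ℂ))]
    refine ⟨(N * N * N) (F.pt (0, 0)) (F.pt (0, 0)) + (N * N * N) (F.pt (1, 0)) (F.pt (1, 0)), ?_⟩
    rw [fdiag, hN, ← Matrix.map_mul, ← Matrix.map_mul]
    simp
  obtain ⟨r, hr⟩ := hnn
  rw [hr] at h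
  have h' : ((p * r + 12 * p : ℕ) : ℂ) = ((0 : ℕ) : ℂ) := by push_cast; linear_combination -h
  have := Nat.cast_injective h'
  have := (Fact.out : p.Prime).pos
  omega

set_option maxHeartbeats 800000 in
/-- The main dichotomy. -/
theorem main : #(univ.erase F.q0) ≤ 1 ∨
    (#(univ.erase F.q0) = 2 ∧ ∃ a : ℕ, 0 < a ∧ p = 2 * a ^ 2 + 2 * a + 1 ∧
      ∀ C : F.Q, C ≠ F.q0 → F.kval C = a * (2 * a + 1) ∨ F.kval C = (a + 1) * (2 * a + 1)) := by
  classical
  rcases Nat.lt_or_ge (#(univ.erase F.q0)) 2 with hR | hR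
  · left; omega
  right
  set e := Nat.card F.sym with he
  have he0 : 0 < e := Nat.card_pos
  have hidx := F.index_mul_sym
  set t := F.sym.index with ht
  rw [← he] at hidx
  have key : ∀ C ∈ univ.erase F.q0, ∃ m' w : ℕ, F.m C = e * m' ∧
      2 * F.r C 0 0 = e * (m' + 2 * w) ∧ 1 ≤ m' + 2 * w := by
    intro C hC
    obtain ⟨m', w, h1, h2⟩ := F.dvd_counts (Finset.mem_erase.1 hC).1
    refine ⟨m', w, h1, h2, ?_⟩
    by_contra h0
    have := F.r00_pos (Finset.mem_erase.1 hC).1
    rw [show m' + 2 * w = 0 by omega, mul_zero] at h2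
    omega
  choose! m' w hm hs hpos using key
  have hsum : ∑ C ∈ univ.erase F.q0, (m' C + 2 * w C) = 2 * t := by
    refine Nat.eq_of_mul_eq_mul_left he0 ?_
    rw [Finset.mul_sum, ← Finset.sum_congr rfl hs, ← Finset.mul_sum, F.sum_r00, ← hidx]
    ring
  have hRle : #(univ.erase F.q0) ≤ 2 * t := by
    rw [← hsum, Finset.card_eq_sum_ones]
    exact Finset.sum_le_sum hpos
  have hp1 := (Fact.out : p.Prime).one_le
  by_cases htop : F.sym = ⊤
  · have ht1 : t = 1 := by rw [ht, htop, Subgroup.index_top]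
    rw [ht1] at hRle hsum hidx
    have hone : ∀ C ∈ univ.erase F.q0, m' C + 2 * w C = 1 := by
      intro C hC
      have h1 := Finset.add_sum_erase _ (fun C => m' C + 2 * w C) hC
      have h2 : ((univ.erase F.q0).erase C).card * 1 ≤
          ∑ D ∈ (univ.erase F.q0).erase C, (m' D + 2 * w D) := by
        rw [mul_one, Finset.card_eq_sum_ones]
        exact Finset.sum_le_sum fun D hD => hpos D (Finset.mem_of_mem_erase hD)
      rw [Finset.card_erase_of_mem hC] at h2
      have := hpos C hC
      omega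
    refine ⟨by omega, ?_⟩
    have hprop : ∀ C ∈ univ.erase F.q0,
        2 * F.aval C * (F.aval C + 1) = (p : ℤ) - 1 ∧ (F.kval C : ℤ) = (p : ℤ) - 1 - F.aval C := by
      intro C hC
      have h1 := hone C hC
      have h2 := hm C hC
      have h3 := hs C hC
      rw [show m' C = 1 by omega, mul_one] at h2
      rw [h1, mul_one] at h3
      have h4 := F.m_eq (Finset.mem_erase.1 hC).1
      have h5 := F.kval_eq C
      refine ⟨?_, ?_⟩
      · omega
      · rw [aval]; omega
    obtain ⟨C0, hC0⟩ := Finset.card_pos.1 (by omega : 0 < #(univ.erase F.q0))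
    obtain ⟨hq, -⟩ := hprop C0 hC0
    have hp2 := (Fact.out : p.Prime).two_le
    obtain ⟨a, ha0, hq'⟩ : ∃ a : ℤ, 0 < a ∧ 2 * a * (a + 1) = (p : ℤ) - 1 := by
      rcases lt_trichotomy (F.aval C0) 0 with h | h | h
      · refine ⟨-1 - F.aval C0, ?_, by rw [← hq]; ring⟩
        by_contra hle
        rw [show F.aval C0 = -1 by omega] at hq
        omega
      · rw [h] at hq; omega
      · exact ⟨_, h, hq⟩
    refine ⟨a.natAbs, by omega, ?_, fun C hC => ?_⟩
    · have : (p : ℤ) = 2 * (a.natAbs : ℤ) ^ 2 + 2 * a.natAbs + 1 := by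
        rw [Int.natAbs_of_nonneg ha0.le]; linear_combination -hq'
      exact_mod_cast this
    · obtain ⟨h1, h2⟩ := hprop C (Finset.mem_erase.2 ⟨hC, Finset.mem_univ _⟩)
      have hcases : F.aval C = a ∨ F.aval C = -1 - a := by
        have : (F.aval C - a) * (F.aval C + a + 1) = 0 := by
          have h12 : 2 * ((F.aval C - a) * (F.aval C + a + 1)) = 0 := by linear_combination h1 - hq'
          omega
        rcases mul_eq_zero.1 this with h | h
        · exact Or.inl (by omega)
        · exact Or.inr (by omega)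
      have hn : ((a.natAbs : ℕ) : ℤ) = a := Int.natAbs_of_nonneg ha0.le
      rcases hcases with hc | hc
      · left
        have : (F.kval C : ℤ) = (a.natAbs : ℤ) * (2 * a.natAbs + 1) := by
          rw [h2, hc, hn]; linear_combination -hq'
        exact_mod_cast this
      · right
        have : (F.kval C : ℤ) = ((a.natAbs : ℤ) + 1) * (2 * a.natAbs + 1) := by
          rw [h2, hc, hn]; linear_combination -hq'
        exact_mod_cast this
  exfalso
  have hR1 := F.card_Q_ge htop
  rw [← ht] at hR1
  have ht2 : 2 ≤ t := by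
    have h1 : t ≠ 1 := fun h => htop (Subgroup.index_eq_one.1 (ht ▸ h))
    have h0 : t ≠ 0 := Subgroup.FiniteIndex.index_ne_zero
    omega
  set d := Nat.card F.mults with hd
  have hd0 : 0 < d := Nat.card_pos
  have hed : e ≤ 2 * d := by
    have h1 := F.card_sym_mul_le htop
    have h2 := F.card_nrm_le hR
    rw [← he] at h1
    rw [← hd] at h2
    exact Nat.le_of_mul_le_mul_left (by rw [← mul_assoc, mul_comm p 2]; omega)
      (Fact.out : p.Prime).pos
  -- a suborbit with a one-class diagonal forces `e = 4`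
  have hsone : ∀ C ∈ univ.erase F.q0, m' C + 2 * w C = 1 →
      e = 4 ∧ (F.aval C = 1 ∨ F.aval C = -2) := by
    intro C hC h1
    have h2 := hm C hC
    rw [show m' C = 1 by omega, mul_one] at h2
    have h4 := F.m_eq (Finset.mem_erase.1 hC).1
    rw [h2] at h4
    set a := F.aval C
    have hX : 0 < a * (a + 1) := by nlinarith
    have hXd : a * (a + 1) ≤ d := by nlinarith
    have hed' := F.dvd_aval (C := C) (Finset.mem_erase.1 hC).1
    rw [← hd] at hed'
    have hsmall : a * (a + 1) ≤ 2 := by
      by_contra hgt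
      have hd3 : (3 : ℤ) ≤ d := by omega
      rcases lt_trichotomy a 0 with ha | ha | ha
      · have ha1 : a ≤ -2 := by
          by_contra hc
          rw [show a = -1 by omega] at hX
          norm_num at hX
        rcases hed' with h | h
        · have := Int.le_of_dvd (by omega) (dvd_neg.2 h)
          nlinarith
        · have := Int.le_of_dvd (by omega) (dvd_neg.2 h)
          nlinarith
      · rw [ha] at hX; simp at hX
      · rcases hed' with h | h
        · have := Int.le_of_dvd ha h
          nlinarith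
        · have := Int.le_of_dvd (by omega) h
          nlinarith
    have hb1 : a ≤ 1 := by nlinarith
    have hb2 : -2 ≤ a := by nlinarith
    have hcases : a = 1 ∨ a = -2 := by
      obtain h | h | h | h : a = -2 ∨ a = -1 ∨ a = 0 ∨ a = 1 := by omega
      · exact Or.inr h
      · rw [h] at hX; norm_num at hX
      · rw [h] at hX; norm_num at hX
      · exact Or.inl h
    refine ⟨?_, hcases⟩
    rcases hcases with h | h <;> rw [h] at h4 <;> omega
  have hex : ∃ C ∈ univ.erase F.q0, m' C + 2 * w C = 1 := by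
    by_contra hc
    push Not at hc
    have : 2 * #(univ.erase F.q0) ≤ 2 * t := by
      rw [← hsum, mul_comm, ← smul_eq_mul, ← Finset.sum_const]
      exact Finset.sum_le_sum fun C hC => by have := hpos C hC; have := hc C hC; omega
    omega
  obtain ⟨C1, hC1, h11⟩ := hex
  obtain ⟨he4, -⟩ := hsone C1 hC1 h11
  have hp5 : 5 < p := by
    have : 2 * 4 ≤ t * e := Nat.mul_le_mul ht2 he4.ge
    omega
  have hbound : ∀ C ∈ univ.erase F.q0, F.aval C ≤ 2 * (((m' C + 2 * w C : ℕ) : ℤ) - 2) := by
    intro C hC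
    have hne := (Finset.mem_erase.1 hC).1
    have h1 := hpos C hC
    have h2 := hm C hC
    have h4 := F.m_eq hne
    rw [h2, he4] at h4
    rcases Nat.eq_or_lt_of_le h1 with h | h
    · rcases (hsone C hC h.symm).2 with ha | ha
      · exfalso
        refine F.no_three hne hp5 (he ▸ he4) ha ?_ ?_
        · have := hs C hC
          rw [he4, ← h] at this
          omega
        · rw [h2, he4, show m' C = 1 by omega]
      · omega
    · set a := F.aval C
      rcases le_or_gt a 0 with ha | ha
      · push_cast; omega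
      · have hX : a * (a + 1) = 2 * (m' C : ℤ) := by push_cast at h4; linarith
        rcases Nat.lt_or_ge 3 (m' C + 2 * w C) with h5 | h5
        · push_cast
          by_contra hgt
          have : (4 : ℤ) ≤ (m' C : ℤ) + 2 * (w C : ℤ) := by omega
          have h7 : (m' C : ℤ) ≤ (m' C : ℤ) + 2 * (w C : ℤ) := by omega
          nlinarith
        · have ha2 : a ≤ 2 := by
            have : (m' C : ℤ) ≤ 3 := by omega
            nlinarith
          push_cast
          interval_cases a <;> omega
  have hsa := F.sum_aval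
  have h6 := Finset.sum_le_sum hbound
  rw [hsa, ← Finset.mul_sum, Finset.sum_sub_distrib, Finset.sum_const, ← Nat.cast_sum, hsum,
    nsmul_eq_mul] at h6
  push_cast at h6
  have : (1 : ℤ) + t ≤ (#(univ.erase F.q0) : ℤ) := by exact_mod_cast hR1
  linarith

end Frame

end Cfsg.Agent.H63.Wielandt
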